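import Mathlib

set_option autoImplicit false

namespace Cfsg.Agent.H40

open MulAction

/-- Burnside for a product of two coset spaces, with the double cosets classified by a map `T`. -/
theorem sum_fix_mul_fix {G : Type*} [Group G] [Fintype G] (H K : Subgroup G) {S : Type*} (T : G → S)
    (hT : Function.Surjective T)
    (h : ∀ g g' : G, T g = T g' ↔ ∃ a ∈ H, ∃ b ∈ K, g' = a * g * b) :
    ∑ g : G, Nat.card (fixedBy (G ⧸ H) g) * Nat.card (fixedBy (G ⧸ K) g) = Nat.card G * Nat.card S := by
  classical
  let X := (G ⧸ H) × (G ⧸ K)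
  have : Fintype X := Fintype.ofFinite X
  have : ∀ g : G, Fintype (fixedBy X g) := fun g => Fintype.ofFinite _
  have : Fintype (Quotient (orbitRel G X)) := Fintype.ofFinite _
  have hB := MulAction.sum_card_fixedBy_eq_card_orbits_mul_card_group G X
  have h1 : ∀ g : G, Fintype.card (fixedBy X g) = Nat.card (fixedBy (G ⧸ H) g) * Nat.card (fixedBy (G ⧸ K) g) := by
    intro g
    rw [← Nat.card_prod, ← Nat.card_eq_fintype_card]
    refine Nat.card_congr
      { toFun := fun x => (⟨x.1.1, ?_⟩, ⟨x.1.2, ?_⟩)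
        invFun := fun y => ⟨(y.1.1, y.2.1), ?_⟩
        left_inv := fun x => rfl
        right_inv := fun y => rfl }
    · have := x.2
      rw [mem_fixedBy] at this ⊢
      exact congrArg Prod.fst this
    · have := x.2
      rw [mem_fixedBy] at this ⊢
      exact congrArg Prod.snd this
    · rw [mem_fixedBy]
      exact Prod.ext y.1.2 y.2.2
  -- the map to S
  let t : X → S := fun x => Quotient.liftOn₂' x.1 x.2 (fun a b => T (a⁻¹ * b)) (by
    intro a b a' b' ha hb
    rw [QuotientGroup.leftRel_apply] at ha hb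
    rw [h]
    refine ⟨a'⁻¹ * a, ?_, b⁻¹ * b', hb, ?_⟩
    · have := H.inv_mem ha
      simpa using this
    · simp [mul_assoc])
  have ht : ∀ a b : G, t ((a : G ⧸ H), (b : G ⧸ K)) = T (a⁻¹ * b) := fun a b => rfl
  have htiff : ∀ x y : X, t x = t y ↔ (orbitRel G X).r x y := by
    rintro ⟨x1, x2⟩ ⟨y1, y2⟩
    induction x1 using QuotientGroup.induction_on with | _ a
    induction x2 using QuotientGroup.induction_on with | _ b
    induction y1 using QuotientGroup.induction_on with | _ a'
    induction y2 using QuotientGroup.induction_on with | _ b'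
    rw [ht, ht, h]
    change _ ↔ _ ∈ MulAction.orbit G _
    constructor
    · rintro ⟨u, hu, v, hv, he⟩
      refine ⟨a * u⁻¹ * a'⁻¹, ?_⟩
      refine Prod.ext ?_ ?_
      · change ((a * u⁻¹ * a'⁻¹ * a' : G) : G ⧸ H) = (a : G ⧸ H)
        rw [inv_mul_cancel_right]
        rw [QuotientGroup.eq]
        simpa using hu
      · change ((a * u⁻¹ * a'⁻¹ * b' : G) : G ⧸ K) = (b : G ⧸ K)
        have : a * u⁻¹ * a'⁻¹ * b' = b * v := by
          rw [mul_assoc, he]; group
        rw [this, QuotientGroup.eq]
        simpa using hv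
    · rintro ⟨g, hg⟩
      have hg1 : ((g * a' : G) : G ⧸ H) = (a : G ⧸ H) := congrArg Prod.fst hg
      have hg2 : ((g * b' : G) : G ⧸ K) = (b : G ⧸ K) := congrArg Prod.snd hg
      rw [QuotientGroup.eq] at hg1 hg2
      refine ⟨(g * a')⁻¹ * a, hg1, ((g * b')⁻¹ * b)⁻¹, K.inv_mem hg2, ?_⟩
      group
  have h2 : Fintype.card (Quotient (orbitRel G X)) = Nat.card S := by
    rw [← Nat.card_eq_fintype_card]
    refine Nat.card_congr (Equiv.ofBijective (Quotient.lift t (fun x y hxy => (htiff x y).2 hxy)) ⟨?_, ?_⟩)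
    · intro x y
      induction x using Quotient.inductionOn with | _ x
      induction y using Quotient.inductionOn with | _ y
      intro hxy
      exact Quotient.sound ((htiff x y).1 hxy)
    · intro s
      obtain ⟨g, rfl⟩ := hT s
      refine ⟨Quotient.mk _ (((1 : G) : G ⧸ H), (g : G ⧸ K)), ?_⟩
      change T (1⁻¹ * g) = T g
      simp
  rw [Finset.sum_congr rfl (fun g _ => (h1 g).symm), hB, h2, mul_comm, Nat.card_eq_fintype_card (α := G)]

end Cfsg.Agent.H40
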