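import Mathlib
import Cfsg.Prelude.Def_LinearParabolics

set_option autoImplicit false

namespace Cfsg.Agent.H40

variable {n : ℕ}

/-- partial sums of a composition -/
def psum (μ : Fin n → ℕ) (a : Fin n) : ℕ := ∑ k ∈ Finset.univ.filter (fun k : Fin n => k ≤ a), μ k

lemma psum_mono (μ : Fin n → ℕ) : Monotone (psum μ) := by
  intro a b hab
  apply Finset.sum_le_sum_of_subset
  intro k hk
  simp only [Finset.mem_filter, Finset.mem_univ, true_and] at hk ⊢
  exact hk.trans hab

lemma compLabel_eq (μ : Fin n → ℕ) (i : Fin n) :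
    Cfsg.compLabel μ i = (Finset.univ.filter (fun j : Fin n => psum μ j ≤ i.val)).card := rfl

lemma compLabel_mono (μ : Fin n → ℕ) : Monotone (Cfsg.compLabel μ) := by
  intro i j hij
  rw [compLabel_eq, compLabel_eq]
  apply Finset.card_le_card
  intro k hk
  simp only [Finset.mem_filter, Finset.mem_univ, true_and] at hk ⊢
  exact hk.trans hij

/-- `i < s_a` iff the label of `i` is at most `a`. -/
lemma compLabel_le_iff (μ : Fin n → ℕ) (i a : Fin n) : Cfsg.compLabel μ i ≤ a.val ↔ i.val < psum μ a := by
  rw [compLabel_eq]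
  constructor
  · intro h
    by_contra hcon
    push Not at hcon
    have h1 : Finset.univ.filter (fun k : Fin n => k ≤ a) ⊆ Finset.univ.filter (fun j : Fin n => psum μ j ≤ i.val) := by
      intro k hk
      simp only [Finset.mem_filter, Finset.mem_univ, true_and] at hk ⊢
      exact (psum_mono μ hk).trans hcon
    have h2 := Finset.card_le_card h1
    have h3 : (Finset.univ.filter (fun k : Fin n => k ≤ a)).card = a.val + 1 := by
      have : Finset.univ.filter (fun k : Fin n => k ≤ a) = Finset.Iic a := by
        ext k; simp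
      rw [this, Fin.card_Iic]
    omega
  · intro h
    have h1 : Finset.univ.filter (fun j : Fin n => psum μ j ≤ i.val) ⊆ Finset.univ.filter (fun k : Fin n => k < a) := by
      intro k hk
      simp only [Finset.mem_filter, Finset.mem_univ, true_and] at hk ⊢
      by_contra hcon
      push Not at hcon
      have := psum_mono μ hcon
      omega
    have h2 := Finset.card_le_card h1
    have h3 : (Finset.univ.filter (fun k : Fin n => k < a)).card = a.val := by
      have : Finset.univ.filter (fun k : Fin n => k < a) = Finset.Iio a := by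
        ext k; simp
      rw [this, Fin.card_Iio]
    omega

lemma psum_le (μ : Fin n → ℕ) (hμ : ∑ i, μ i = n) (a : Fin n) : psum μ a ≤ n := by
  conv_rhs => rw [← hμ]
  apply Finset.sum_le_sum_of_subset
  exact Finset.subset_univ _

lemma compLabel_lt (μ : Fin n → ℕ) (hμ : ∑ i, μ i = n) (i : Fin n) : Cfsg.compLabel μ i < n := by
  have hn : 0 < n := i.pos
  have h := (compLabel_le_iff μ i ⟨n - 1, by omega⟩).2 (by
    have : psum μ ⟨n - 1, by omega⟩ = n := by
      conv_rhs => rw [← hμ]
      unfold psum
      congr 1
      ext k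
      simp only [Finset.mem_filter, Finset.mem_univ, true_and, iff_true]
      rw [Fin.le_def]; have := k.2; simp only; omega
    rw [this]; exact i.2)
  simp only at h
  omega

lemma card_label_le (μ : Fin n → ℕ) (hμ : ∑ i, μ i = n) (a : Fin n) :
    (Finset.univ.filter (fun i : Fin n => Cfsg.compLabel μ i ≤ a.val)).card = psum μ a := by
  have h1 : Finset.univ.filter (fun i : Fin n => Cfsg.compLabel μ i ≤ a.val) =
      Finset.univ.filter (fun i : Fin n => i.val < psum μ a) := by
    ext i
    simp only [Finset.mem_filter, Finset.mem_univ, true_and]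
    exact compLabel_le_iff μ i a
  rw [h1]
  have := psum_le μ hμ a
  rw [Fin.card_filter_val_lt]
  omega

lemma psum_succ (μ : Fin n → ℕ) (a b : Fin n) (h : b.val = a.val + 1) : psum μ b = psum μ a + μ b := by
  unfold psum
  have : Finset.univ.filter (fun k : Fin n => k ≤ b) = insert b (Finset.univ.filter (fun k : Fin n => k ≤ a)) := by
    ext k
    simp only [Finset.mem_filter, Finset.mem_univ, true_and, Finset.mem_insert, Fin.le_def, Fin.ext_iff]
    omega
  rw [this, Finset.sum_insert, add_comm]
  simp only [Finset.mem_filter, Finset.mem_univ, true_and, Fin.le_def]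
  omega

lemma psum_zero (μ : Fin n → ℕ) (a : Fin n) (h : a.val = 0) : psum μ a = μ a := by
  unfold psum
  have : Finset.univ.filter (fun k : Fin n => k ≤ a) = {a} := by
    ext k
    simp only [Finset.mem_filter, Finset.mem_univ, true_and, Finset.mem_singleton, Fin.le_def, Fin.ext_iff]
    omega
  rw [this, Finset.sum_singleton]

/-- the fibre of the label `a` has `μ a` elements. -/
lemma card_label_eq (μ : Fin n → ℕ) (hμ : ∑ i, μ i = n) (a : Fin n) :
    (Finset.univ.filter (fun i : Fin n => Cfsg.compLabel μ i = a.val)).card = μ a := by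
  by_cases ha : a.val = 0
  · rw [← psum_zero μ a ha, ← card_label_le μ hμ a]
    congr 1
    ext i
    simp only [Finset.mem_filter, Finset.mem_univ, true_and]
    omega
  · let b : Fin n := ⟨a.val - 1, by have := a.2; omega⟩
    have hb : a.val = b.val + 1 := by simp only [b]; omega
    have h1 := psum_succ μ b a hb
    have h2 := card_label_le μ hμ a
    have h3 := card_label_le μ hμ b
    have h4 : Finset.univ.filter (fun i : Fin n => Cfsg.compLabel μ i ≤ a.val) =
        (Finset.univ.filter (fun i : Fin n => Cfsg.compLabel μ i ≤ b.val)) ∪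
        (Finset.univ.filter (fun i : Fin n => Cfsg.compLabel μ i = a.val)) := by
      ext i
      simp only [Finset.mem_filter, Finset.mem_univ, true_and, Finset.mem_union]
      omega
    rw [h4, Finset.card_union_of_disjoint, h3, h1] at h2
    · omega
    · rw [Finset.disjoint_filter]
      intro i _ h
      omega

/-- label as an element of `Fin n`. -/
def labF (μ : Fin n → ℕ) (hμ : ∑ i, μ i = n) (i : Fin n) : Fin n := ⟨Cfsg.compLabel μ i, compLabel_lt μ hμ i⟩

lemma card_labF (μ : Fin n → ℕ) (hμ : ∑ i, μ i = n) (a : Fin n) :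
    (Finset.univ.filter (fun i : Fin n => labF μ hμ i = a)).card = μ a := by
  rw [← card_label_eq μ hμ a]
  congr 1
  ext i
  simp [labF, Fin.ext_iff]

lemma mem_young_iff (μ : Fin n → ℕ) (hμ : ∑ i, μ i = n) (σ : Equiv.Perm (Fin n)) :
    σ ∈ Cfsg.youngSubgroup μ ↔ ∀ i, labF μ hμ (σ i) = labF μ hμ i := by
  have : σ ∈ Cfsg.youngSubgroup μ ↔ ∀ i, Cfsg.compLabel μ (σ i) = Cfsg.compLabel μ i := Iff.rfl
  rw [this]
  simp [labF, Fin.ext_iff]

end Cfsg.Agent.H40
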