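import Cfsg.Agent.H40.CoxGen

set_option autoImplicit false
set_option maxRecDepth 100000

namespace Cfsg.Agent.H40

open Cfsg.Agent.ChevWeyl

section

variable {l n : ℕ} (D : RootPerm l n)

lemma rp_commutes {u : Equiv.Perm (Fin n)} (hu : u ∈ D.W) {i : Fin l} (h : u * D.w i = D.w i * u) :
    u (D.p i) = D.p i ∨ u (D.p i) = D.neg (D.p i) := by
  have h1 : D.w i (u (D.p i)) = D.neg (u (D.p i)) := by
    rw [← Equiv.Perm.mul_apply, ← h, Equiv.Perm.mul_apply, D.w_p, D.W_neg hu]
  apply D.red
  intro j hj
  have h2 := D.c_w i (u (D.p i)) j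
  rw [h1, D.c_neg, if_neg hj] at h2
  linarith

lemma rp_m_neg (j i : Fin l) : D.m j (D.neg (D.p i)) = - D.m j (D.p i) := by
  have := D.m_w i j (D.p i)
  rw [D.w_p, D.m_p] at this
  linarith

lemma rp_P_neg_left (r s : Fin n) : D.P (D.neg r) s = - D.P r s := by
  unfold RootPerm.P
  rw [← Finset.sum_neg_distrib]
  apply Finset.sum_congr rfl
  intro k _
  rw [D.c_neg]
  ring

lemma rp_sign_adj {u : Equiv.Perm (Fin n)} (hu : u ∈ D.W) {i k : Fin l} (hik : D.m i (D.p k) ≠ 0) :
    (u (D.p i) = D.p i → u (D.p k) = D.neg (D.p k) → False) ∧ (u (D.p i) = D.neg (D.p i) → u (D.p k) = D.p k → False) := by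
  have h0 := D.P_W hu (D.p i) (D.p k)
  constructor
  · intro hi hk
    rw [hi, hk, D.P_p_left, D.P_p_left, rp_m_neg] at h0
    apply hik
    linarith
  · intro hi hk
    rw [hi, hk, rp_P_neg_left, D.P_p_left] at h0
    apply hik
    linarith

lemma rp_cases {u : Equiv.Perm (Fin n)} (hu : u ∈ D.W) (h : ∀ i, u * D.w i = D.w i * u)
    (par : Fin l → Fin l) (root : Fin l) (N : ℕ) (hpar : ∀ i, par i = i ∨ D.m i (D.p (par i)) ≠ 0)
    (hiter : ∀ i, par^[N] i = root) : (∀ i, u (D.p i) = D.p i) ∨ (∀ i, u (D.p i) = D.neg (D.p i)) := by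
  have h1 := fun i => rp_commutes D hu (h i)
  have hne : ∀ i, D.p i ≠ D.neg (D.p i) := by
    intro i hcon
    have := D.c_neg (D.p i) i
    rw [← hcon, D.c_p, if_pos rfl] at this
    omega
  have h2 : ∀ i, (u (D.p i) = D.p i ↔ u (D.p (par i)) = D.p (par i)) := by
    intro i
    rcases hpar i with h3 | h3
    · rw [h3]
    · have h4 := rp_sign_adj D hu h3
      rcases h1 i with h5 | h5 <;> rcases h1 (par i) with h6 | h6
      · exact ⟨fun _ => h6, fun _ => h5⟩
      · exact (h4.1 h5 h6).elim
      · exact (h4.2 h5 h6).elim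
      · constructor
        · intro h7; exact absurd (h7.symm.trans h5) (hne i)
        · intro h7; exact absurd (h7.symm.trans h6) (hne _)
  have h3 : ∀ N i, (u (D.p i) = D.p i ↔ u (D.p (par^[N] i)) = D.p (par^[N] i)) := by
    intro N
    induction N with
    | zero => intro i; rfl
    | succ N ih =>
      intro i
      rw [h2 i, ih (par i), Function.iterate_succ_apply]
  rcases h1 root with h4 | h4
  · left
    intro i
    rw [h3 N i, hiter i]
    exact h4
  · right
    intro i
    rcases h1 i with h5 | h5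
    · rw [h3 N i, hiter i] at h5
      exact absurd (h5.symm.trans h4) (hne _)
    · exact h5

lemma rp_eq_one {u : Equiv.Perm (Fin n)} (hu : u ∈ D.W) (h : ∀ i, D.Pos (u (D.p i))) : u = 1 := by
  by_contra hne
  rw [← D.WJ_univ] at hu
  obtain ⟨j, _, hj⟩ := D.exists_descent hu hne
  exact hj (h j)

lemma rp_comm_of_neg {u : Equiv.Perm (Fin n)} (hu : u ∈ D.W) {i : Fin l} (h : u (D.p i) = D.neg (D.p i)) :
    u * D.w i = D.w i * u := by
  have h1 : (u * D.w i) (D.p i) = D.p i := by
    rw [Equiv.Perm.mul_apply, D.w_p, D.W_neg hu, h, D.neg_neg]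
  have h2 := D.conj_w (D.W.mul_mem hu (D.w_mem i)) h1
  have h3 : u * D.w i * D.w i * (u * D.w i)⁻¹ = u * D.w i * u⁻¹ := by
    rw [mul_inv_rev, D.w_inv]
    have := D.w_mul_w i
    calc u * D.w i * D.w i * (D.w i * u⁻¹) = u * (D.w i * D.w i) * (D.w i * u⁻¹) := by simp only [mul_assoc]
      _ = u * D.w i * u⁻¹ := by rw [this, mul_one, mul_assoc]
  rw [h3] at h2
  rw [mul_inv_eq_iff_eq_mul] at h2
  exact h2

lemma rp_neg_all {u : Equiv.Perm (Fin n)} (hu : u ∈ D.W) (h : ∀ i, u (D.p i) = D.neg (D.p i)) (r : Fin n) : u r = D.neg r := by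
  apply D.c_inj
  funext k
  rw [D.lin hu, D.c_neg]
  have : ∀ i, D.c r i * D.c (u (D.p i)) k = if i = k then - D.c r k else 0 := by
    intro i
    rw [h i, D.c_neg, D.c_p]
    by_cases hik : i = k
    · subst hik; simp
    · rw [if_neg hik, if_neg (Ne.symm hik)]; ring
  rw [Finset.sum_congr rfl (fun i _ => this i)]
  simp

end

section

variable {T : RTab} (h : T.ok = true) {M : CoxeterMatrix (Fin T.l)} (C : CoxData (T.datum h) M)

include C in
lemma act_center {z : M.Group} (hz : z ∈ Subgroup.center M.Group) (i : Fin T.l) :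
    C.act M.toCoxeterSystem z * (T.datum h).w i = (T.datum h).w i * C.act M.toCoxeterSystem z := by
  have a1 : C.act M.toCoxeterSystem (M.simple i) = (T.datum h).w i := C.act_simple M.toCoxeterSystem i
  rw [← a1, ← map_mul, ← map_mul, Subgroup.mem_center_iff.1 hz]

lemma mem_center_of_act {z : M.Group} (hz : ∀ i, C.act M.toCoxeterSystem z * (T.datum h).w i = (T.datum h).w i * C.act M.toCoxeterSystem z) :
    z ∈ Subgroup.center M.Group := by
  have h1 : ∀ i, z * M.simple i = M.simple i * z := by
    intro i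
    apply C.act_injective M.toCoxeterSystem
    have a1 : C.act M.toCoxeterSystem (M.simple i) = (T.datum h).w i := C.act_simple M.toCoxeterSystem i
    rw [map_mul, map_mul, a1, hz i]
  have h2 : Subgroup.centralizer {z} = ⊤ := by
    apply eq_top_of_simple
    intro k
    rw [Subgroup.mem_centralizer_singleton_iff]
    exact (h1 k).symm
  rw [Subgroup.mem_center_iff]
  intro g
  have : g ∈ Subgroup.centralizer {z} := by rw [h2]; exact Subgroup.mem_top g
  rw [Subgroup.mem_centralizer_singleton_iff] at this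
  exact this

include C in
theorem center_two (par : Fin T.l → Fin T.l) (root : Fin T.l) (N : ℕ)
    (hpar : ∀ i, par i = i ∨ T.mf i (T.pf (par i)) ≠ 0)
    (hiter : ∀ i, par^[N] i = root) (k : ℕ) (hk : ∀ i : Fin T.l, Nat.beq (T.coxIter k (T.pf i)) (T.nf (T.pf i)) = true) :
    Nat.card (Subgroup.center M.Group) = 2 ∧
      Subgroup.center M.Group ≤ Subgroup.zpowers ((List.finRange T.l).map M.simple).prod := by
  set D := T.datum h with hD
  set cs := M.toCoxeterSystem
  set c := ((List.finRange T.l).map M.simple).prod with hc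
  have hact : ∀ r : Fin T.n, ((C.act cs (c ^ k) r : Fin T.n) : ℕ) = T.coxIter k r := by
    intro r
    have : c = cs.wordProd (List.finRange T.l) := rfl
    rw [map_pow, this, C.act_wordProd, RTab.wd_coxIter]
  have hneg : ∀ i, C.act cs (c ^ k) (D.p i) = D.neg (D.p i) := by
    intro i
    apply Fin.ext
    rw [hact]
    exact Nat.beq_eq.mp (hk i)
  have hneg' := rp_neg_all D (C.act_mem cs (c ^ k)) hneg
  have hz2 : (c ^ k) * (c ^ k) = 1 := by
    apply C.act_injective cs
    rw [map_mul, map_one]
    ext1 r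
    rw [Equiv.Perm.mul_apply, hneg', hneg', D.neg_neg]
    rfl
  have hz1 : c ^ k ≠ 1 := by
    intro hcon
    have h1 := hneg root
    rw [hcon, map_one, Equiv.Perm.one_apply] at h1
    have := D.c_neg (D.p root) root
    rw [← h1, D.c_p, if_pos rfl] at this
    omega
  have hcz : c ^ k ∈ Subgroup.center M.Group := by
    apply mem_center_of_act h C
    intro i
    exact rp_comm_of_neg D (C.act_mem cs _) (hneg i)
  have hcases : ∀ z ∈ Subgroup.center M.Group, z = 1 ∨ z = c ^ k := by
    intro z hz
    rcases rp_cases D (C.act_mem cs z) (act_center h C hz) par root N hpar hiter with h1 | h1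
    · left
      apply C.act_injective cs
      rw [map_one]
      apply rp_eq_one D (C.act_mem cs z)
      intro i
      rw [h1 i]
      exact D.pos_p i
    · right
      apply C.act_injective cs
      ext1 r
      rw [rp_neg_all D (C.act_mem cs z) h1, hneg']
  constructor
  · have : Subgroup.center M.Group = Subgroup.zpowers (c ^ k) := by
      apply le_antisymm
      · intro z hz
        rcases hcases z hz with rfl | rfl
        · exact Subgroup.one_mem _
        · exact Subgroup.mem_zpowers _
      · rw [Subgroup.zpowers_le]; exact hcz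
    rw [this, Nat.card_zpowers]
    exact orderOf_eq_prime (by rw [pow_two]; exact hz2) hz1
  · intro z hz
    rcases hcases z hz with rfl | rfl
    · exact Subgroup.one_mem _
    · exact Subgroup.npow_mem_zpowers _ _

include C in
theorem center_one (par : Fin T.l → Fin T.l) (root : Fin T.l) (N : ℕ)
    (hpar : ∀ i, par i = i ∨ T.mf i (T.pf (par i)) ≠ 0)
    (hiter : ∀ i, par^[N] i = root) (L : List (Option (Fin T.l)))
    (hL : ∀ i : Fin T.l, ∃ j : Fin T.l, T.cf (evalW T (L.map (Option.map Fin.val)) (T.pf i)) j < 0)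
    (hne : Nat.beq (evalW T (L.map (Option.map Fin.val)) (T.pf root)) (T.nf (T.pf root)) = false) :
    Nat.card (Subgroup.center M.Group) = 1 ∧
      Subgroup.center M.Group ≤ Subgroup.zpowers ((List.finRange T.l).map M.simple).prod := by
  set D := T.datum h with hD
  set cs := M.toCoxeterSystem
  obtain ⟨g, _, hg⟩ := exists_eval h C ⊤ (Subgroup.mem_top _) L (fun _ _ => Subgroup.mem_top _)
  have hbot : Subgroup.center M.Group = ⊥ := by
    rw [eq_bot_iff]
    intro z hz
    rw [Subgroup.mem_bot]
    rcases rp_cases D (C.act_mem cs z) (act_center h C hz) par root N hpar hiter with h1 | h1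
    · apply C.act_injective cs
      rw [map_one]
      apply rp_eq_one D (C.act_mem cs z)
      intro i
      rw [h1 i]
      exact D.pos_p i
    · exfalso
      have h2 := rp_neg_all D (C.act_mem cs z) h1
      have h3 : C.act cs (z * g) = 1 := by
        apply rp_eq_one D (C.act_mem cs _)
        intro i
        rw [map_mul, Equiv.Perm.mul_apply, h2, D.pos_neg_iff]
        intro hpos
        obtain ⟨j, hj⟩ := hL i
        have h4 := hpos j
        have h5 : D.c (C.act cs g (D.p i)) j = T.cf ((C.act cs g (D.p i) : Fin T.n) : ℕ) j := rfl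
        rw [h5, hg] at h4
        exact absurd h4 (not_le.2 hj)
      have h4 := congrFun (congrArg DFunLike.coe h3) (D.p root)
      rw [map_mul, Equiv.Perm.mul_apply, h2, Equiv.Perm.one_apply] at h4
      have h5 : C.act cs g (D.p root) = D.neg (D.p root) := by rw [← h4, D.neg_neg, h4]
      have h6 : evalW T (L.map (Option.map Fin.val)) (T.pf root) = T.nf (T.pf root) := by
        have := hg (D.p root)
        rw [h5] at this
        exact this.symm
      rw [h6] at hne
      simp at hne
  constructor
  · rw [hbot]; exact Subgroup.card_bot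
  · rw [hbot]; exact bot_le

end

end Cfsg.Agent.H40
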