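import Cfsg.Agent.ChevWeyl.Data

set_option autoImplicit false
set_option maxRecDepth 100000

namespace Cfsg.Agent.H40

open Cfsg.Agent.ChevWeyl

/-- evaluate a word of moves on the root numbers: `none` = Coxeter element, `some j` = simple reflection -/
noncomputable def evalW (T : RTab) (L : List (Option ℕ)) (r : ℕ) : ℕ :=
  List.rec (motive := fun _ => ℕ) r (fun m _ ih => Option.rec (motive := fun _ => ℕ) (T.coxN T.l ih) (fun j => T.wf j ih) m) L

lemma evalW_nil (T : RTab) (r : ℕ) : evalW T [] r = r := rfl
lemma evalW_none (T : RTab) (L : List (Option ℕ)) (r : ℕ) : evalW T (none :: L) r = T.coxN T.l (evalW T L r) := rfl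
lemma evalW_some (T : RTab) (j : ℕ) (L : List (Option ℕ)) (r : ℕ) : evalW T (some j :: L) r = T.wf j (evalW T L r) := rfl

theorem exists_eval {T : RTab} (h : T.ok = true) {M : CoxeterMatrix (Fin T.l)} (C : CoxData (T.datum h) M)
    (H : Subgroup M.Group) (hc : M.toCoxeterSystem.wordProd (List.finRange T.l) ∈ H)
    (L : List (Option (Fin T.l))) (hL : ∀ j, some j ∈ L → M.simple j ∈ H) :
    ∃ g ∈ H, ∀ r : Fin T.n, ((C.act M.toCoxeterSystem g r : Fin T.n) : ℕ) = evalW T (L.map (Option.map Fin.val)) r := by
  induction L with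
  | nil => exact ⟨1, H.one_mem, fun r => by rw [map_one]; rfl⟩
  | cons m L ih =>
    obtain ⟨g, hg, hgr⟩ := ih (fun j hj => hL j (List.mem_cons_of_mem _ hj))
    cases m with
    | none =>
      refine ⟨_, H.mul_mem hc hg, fun r => ?_⟩
      rw [map_mul, Equiv.Perm.mul_apply, C.act_wordProd, RTab.wd_cox, hgr]
      rfl
    | some j =>
      refine ⟨_, H.mul_mem (hL j List.mem_cons_self) hg, fun r => ?_⟩
      rw [map_mul, Equiv.Perm.mul_apply]
      have : C.act M.toCoxeterSystem (M.simple j) = (T.datum h).w j := C.act_simple M.toCoxeterSystem j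
      rw [this]
      have h2 : (((T.datum h).w j (C.act M.toCoxeterSystem g r) : Fin T.n) : ℕ) = T.wf j (C.act M.toCoxeterSystem g r : Fin T.n) := rfl
      rw [h2, hgr]
      rfl

theorem simple_mem_of_eval {T : RTab} (h : T.ok = true) {M : CoxeterMatrix (Fin T.l)} (C : CoxData (T.datum h) M)
    (H : Subgroup M.Group) (hc : M.toCoxeterSystem.wordProd (List.finRange T.l) ∈ H)
    (L : List (Option (Fin T.l))) (hL : ∀ j, some j ∈ L → M.simple j ∈ H) (j k : Fin T.l) (hj : M.simple j ∈ H)
    (he : Nat.beq (evalW T (L.map (Option.map Fin.val)) (T.pf j)) (T.pf k) = true) : M.simple k ∈ H := by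
  obtain ⟨g, hg, hgr⟩ := exists_eval h C H hc L hL
  have h1 : C.act M.toCoxeterSystem g ((T.datum h).p j) = (T.datum h).p k := by
    apply Fin.ext
    rw [hgr]
    exact Nat.beq_eq.mp he
  have h2 := (T.datum h).conj_w (C.act_mem M.toCoxeterSystem g) h1
  have h3 : g * M.simple j * g⁻¹ = M.simple k := by
    apply C.act_injective M.toCoxeterSystem
    have a1 : C.act M.toCoxeterSystem (M.simple j) = (T.datum h).w j := C.act_simple M.toCoxeterSystem j
    have a2 : C.act M.toCoxeterSystem (M.simple k) = (T.datum h).w k := C.act_simple M.toCoxeterSystem k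
    rw [map_mul, map_mul, map_inv, a1, a2, h2]
  rw [← h3]
  exact H.mul_mem (H.mul_mem hg hj) (H.inv_mem hg)

theorem eq_top_of_simple {l : ℕ} {M : CoxeterMatrix (Fin l)} (H : Subgroup M.Group) (h : ∀ k, M.simple k ∈ H) : H = ⊤ := by
  rw [eq_top_iff, ← M.toCoxeterSystem.subgroup_closure_range_simple, Subgroup.closure_le]
  rintro _ ⟨k, rfl⟩
  exact h k

end Cfsg.Agent.H40

namespace Cfsg.Agent.H40

open Cfsg.Agent.ChevWeyl

theorem gen_one {T : RTab} (h : T.ok = true) {M : CoxeterMatrix (Fin T.l)} (C : CoxData (T.datum h) M)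
    (j : Fin T.l) (L : Fin T.l → List (Option (Fin T.l))) (hL : ∀ k, ∀ m ∈ L k, m = none ∨ m = some j)
    (he : ∀ k, Nat.beq (evalW T ((L k).map (Option.map Fin.val)) (T.pf j)) (T.pf k) = true) :
    ∃ S : Finset M.Group, S.card = 1 ∧ (∀ t ∈ S, ∃ (g : M.Group) (i : Fin T.l), t = g * M.simple i * g⁻¹) ∧
      Subgroup.closure (({((List.finRange T.l).map M.simple).prod} : Set M.Group) ∪ ↑S) = ⊤ := by
  refine ⟨{M.simple j}, Finset.card_singleton _, ?_, ?_⟩
  · intro t ht
    rw [Finset.mem_singleton] at ht
    exact ⟨1, j, by rw [ht]; simp⟩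
  · apply eq_top_of_simple
    intro k
    have hj : M.simple j ∈ Subgroup.closure (({((List.finRange T.l).map M.simple).prod} : Set M.Group) ∪ ↑({M.simple j} : Finset M.Group)) := by
      apply Subgroup.subset_closure
      right
      simp
    apply simple_mem_of_eval h C _ _ (L k) _ j k hj (he k)
    · apply Subgroup.subset_closure
      left
      rfl
    · intro i hi
      rcases hL k _ hi with h1 | h1
      · cases h1
      · rw [Option.some.inj h1]; exact hj

theorem gen_two {T : RTab} (h : T.ok = true) {M : CoxeterMatrix (Fin T.l)} (C : CoxData (T.datum h) M)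
    (a b : Fin T.l) (hab : Nat.beq (T.wf a (T.pf a)) (T.wf b (T.pf a)) = false)
    (f : Fin T.l → Bool) (L : Fin T.l → List (Option (Fin T.l))) (hL : ∀ k, ∀ m ∈ L k, m = none ∨ m = some a ∨ m = some b)
    (he : ∀ k, Nat.beq (evalW T ((L k).map (Option.map Fin.val)) (T.pf ((bif f k then a else b : Fin T.l) : ℕ))) (T.pf k) = true) :
    ∃ S : Finset M.Group, S.card = 2 ∧ (∀ t ∈ S, ∃ (g : M.Group) (i : Fin T.l), t = g * M.simple i * g⁻¹) ∧
      Subgroup.closure (({((List.finRange T.l).map M.simple).prod} : Set M.Group) ∪ ↑S) = ⊤ := by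
  classical
  refine ⟨{M.simple a, M.simple b}, Finset.card_pair ?_, ?_, ?_⟩
  · intro hcon
    have a1 : C.act M.toCoxeterSystem (M.simple a) = (T.datum h).w a := C.act_simple M.toCoxeterSystem a
    have a2 : C.act M.toCoxeterSystem (M.simple b) = (T.datum h).w b := C.act_simple M.toCoxeterSystem b
    rw [hcon, a2] at a1
    have h1 : (((T.datum h).w a ((T.datum h).p a) : Fin T.n) : ℕ) = (((T.datum h).w b ((T.datum h).p a) : Fin T.n) : ℕ) := by
      rw [a1]
    have h2 : T.wf a (T.pf a) = T.wf b (T.pf a) := h1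
    rw [h2] at hab
    simp at hab
  · intro t ht
    rw [Finset.mem_insert, Finset.mem_singleton] at ht
    rcases ht with rfl | rfl
    · exact ⟨1, a, by simp⟩
    · exact ⟨1, b, by simp⟩
  · apply eq_top_of_simple
    intro k
    have ha : M.simple a ∈ Subgroup.closure (({((List.finRange T.l).map M.simple).prod} : Set M.Group) ∪ ↑({M.simple a, M.simple b} : Finset M.Group)) := by
      apply Subgroup.subset_closure
      right
      simp
    have hb : M.simple b ∈ Subgroup.closure (({((List.finRange T.l).map M.simple).prod} : Set M.Group) ∪ ↑({M.simple a, M.simple b} : Finset M.Group)) := by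
      apply Subgroup.subset_closure
      right
      simp
    have hj : M.simple (bif f k then a else b) ∈ Subgroup.closure (({((List.finRange T.l).map M.simple).prod} : Set M.Group) ∪ ↑({M.simple a, M.simple b} : Finset M.Group)) := by
      cases f k
      · exact hb
      · exact ha
    apply simple_mem_of_eval h C _ _ (L k) _ _ k hj (he k)
    · apply Subgroup.subset_closure
      left
      rfl
    · intro i hi
      rcases hL k _ hi with h1 | h1 | h1
      · cases h1
      · rw [Option.some.inj h1]; exact ha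
      · rw [Option.some.inj h1]; exact hb

theorem gen_rank2 {M : CoxeterMatrix (Fin 2)} :
    ∃ S : Finset M.Group, S.card = 1 ∧ (∀ t ∈ S, ∃ (g : M.Group) (i : Fin 2), t = g * M.simple i * g⁻¹) ∧
      Subgroup.closure (({((List.finRange 2).map M.simple).prod} : Set M.Group) ∪ ↑S) = ⊤ := by
  refine ⟨{M.simple 0}, Finset.card_singleton _, ?_, ?_⟩
  · intro t ht
    rw [Finset.mem_singleton] at ht
    exact ⟨1, 0, by rw [ht]; simp⟩
  · apply eq_top_of_simple
    have hj : M.simple 0 ∈ Subgroup.closure (({((List.finRange 2).map M.simple).prod} : Set M.Group) ∪ ↑({M.simple 0} : Finset M.Group)) := by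
      apply Subgroup.subset_closure
      right
      simp
    have hc : M.simple 0 * M.simple 1 ∈ Subgroup.closure (({((List.finRange 2).map M.simple).prod} : Set M.Group) ∪ ↑({M.simple 0} : Finset M.Group)) := by
      apply Subgroup.subset_closure
      left
      rw [Set.mem_singleton_iff]
      have : List.finRange 2 = [0, 1] := rfl
      rw [this]
      simp
    have h1 := Subgroup.mul_mem _ (Subgroup.inv_mem _ hj) hc
    rw [inv_mul_cancel_left] at h1
    intro k
    fin_cases k
    · exact hj
    · exact h1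

end Cfsg.Agent.H40
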