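import Mathlib
import Cfsg.Prelude.Def_LinearParabolics
import Cfsg.Agent.H40.CompLabel
import Cfsg.Agent.H40.BurnDC

set_option autoImplicit false

namespace Cfsg.Agent.H40

variable {n : ℕ}

/-- contingency tables with given margins -/
def Tab {n : ℕ} (ν μ : Fin n → ℕ) : Type :=
  {A : Fin n → Fin n → ℕ // (∀ a, ∑ b, A a b = ν a) ∧ (∀ b, ∑ a, A a b = μ b)}

/-- two functions with the same fibre sizes differ by a permutation. -/
lemma exists_perm_of_fiber {X Y : Type*} [Fintype X] [DecidableEq Y] (f g : X → Y)
    (h : ∀ y, (Finset.univ.filter (fun x => f x = y)).card = (Finset.univ.filter (fun x => g x = y)).card) :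
    ∃ v : Equiv.Perm X, ∀ x, f (v x) = g x := by
  have e : ∀ y, Nonempty ({x // g x = y} ≃ {x // f x = y}) := by
    intro y
    have h1 : Fintype.card {x // g x = y} = Fintype.card {x // f x = y} := by
      rw [Fintype.card_subtype, Fintype.card_subtype, h y]
    exact ⟨Fintype.equivOfCardEq h1⟩
  exact ⟨Equiv.ofFiberEquiv (fun y => (e y).some), fun x => Equiv.ofFiberEquiv_map _ x⟩

/-- the table attached to a permutation -/
def symTab (ν μ : Fin n → ℕ) (hν : ∑ i, ν i = n) (hμ : ∑ i, μ i = n) (w : Equiv.Perm (Fin n)) : Tab ν μ :=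
  ⟨fun a b => (Finset.univ.filter (fun j : Fin n => labF ν hν (w j) = a ∧ labF μ hμ j = b)).card, by
    constructor
    · intro a
      rw [← card_labF ν hν a]
      have h1 : (Finset.univ.filter (fun i : Fin n => labF ν hν i = a)).card =
          (Finset.univ.filter (fun j : Fin n => labF ν hν (w j) = a)).card := by
        apply Finset.card_bij (fun i _ => w⁻¹ i)
        · intro i hi
          simp only [Finset.mem_filter, Finset.mem_univ, true_and] at hi ⊢
          simpa using hi
        · intro i _ j _ hij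
          exact w⁻¹.injective hij
        · intro j hj
          simp only [Finset.mem_filter, Finset.mem_univ, true_and] at hj
          exact ⟨w j, by simpa using hj, by simp⟩
      rw [h1, Finset.card_eq_sum_card_fiberwise (f := fun j => labF μ hμ j) (t := Finset.univ) (fun _ _ => Finset.mem_coe.2 (Finset.mem_univ _))]
      apply Finset.sum_congr rfl
      intro b _
      rw [Finset.filter_filter]
    · intro b
      rw [← card_labF μ hμ b]
      rw [Finset.card_eq_sum_card_fiberwise (f := fun j => labF ν hν (w j)) (t := Finset.univ) (fun _ _ => Finset.mem_coe.2 (Finset.mem_univ _))]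
      apply Finset.sum_congr rfl
      intro a _
      rw [Finset.filter_filter]
      refine congrArg Finset.card (Finset.filter_congr ?_)
      intro j _
      tauto⟩

lemma symTab_apply (ν μ : Fin n → ℕ) (hν : ∑ i, ν i = n) (hμ : ∑ i, μ i = n) (w : Equiv.Perm (Fin n)) (a b : Fin n) :
    (symTab ν μ hν hμ w).1 a b =
      (Finset.univ.filter (fun j : Fin n => labF ν hν (w j) = a ∧ labF μ hμ j = b)).card := rfl

lemma symTab_eq_iff (ν μ : Fin n → ℕ) (hν : ∑ i, ν i = n) (hμ : ∑ i, μ i = n) (w w' : Equiv.Perm (Fin n)) :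
    symTab ν μ hν hμ w = symTab ν μ hν hμ w' ↔
      ∃ u ∈ Cfsg.youngSubgroup ν, ∃ v ∈ Cfsg.youngSubgroup μ, w' = u * w * v := by
  constructor
  · intro h
    obtain ⟨v, hv⟩ := exists_perm_of_fiber (fun j => (labF ν hν (w j), labF μ hμ j))
      (fun j => (labF ν hν (w' j), labF μ hμ j)) (by
        rintro ⟨a, b⟩
        have := congrFun (congrFun (congrArg Subtype.val h) a) b
        rw [symTab_apply, symTab_apply] at this
        simpa [Prod.ext_iff] using this)
    have hv1 : ∀ j, labF ν hν (w (v j)) = labF ν hν (w' j) := fun j => (Prod.ext_iff.1 (hv j)).1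
    have hv2 : ∀ j, labF μ hμ (v j) = labF μ hμ j := fun j => (Prod.ext_iff.1 (hv j)).2
    refine ⟨w' * v⁻¹ * w⁻¹, ?_, v, (mem_young_iff μ hμ v).2 hv2, by group⟩
    rw [mem_young_iff ν hν]
    intro i
    have := hv1 (v⁻¹ (w⁻¹ i))
    have e1 : w (v (v⁻¹ (w⁻¹ i))) = i := by simp
    rw [e1] at this
    rw [this]
    rfl
  · rintro ⟨u, hu, v, hv, rfl⟩
    rw [mem_young_iff ν hν] at hu
    rw [mem_young_iff μ hμ] at hv
    apply Subtype.ext
    funext a b
    rw [symTab_apply, symTab_apply]
    symm
    apply Finset.card_bij (fun j _ => v j)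
    · intro j hj
      have hj' := (Finset.mem_filter.1 hj).2
      refine Finset.mem_filter.2 ⟨Finset.mem_univ _, ?_⟩
      rw [hv]
      have : (u * w * v) j = u (w (v j)) := rfl
      rw [this, hu] at hj'
      exact hj'
    · intro i _ j _ hij
      exact v.injective hij
    · intro j hj
      have hj' := (Finset.mem_filter.1 hj).2
      refine ⟨v⁻¹ j, ?_, by simp⟩
      refine Finset.mem_filter.2 ⟨Finset.mem_univ _, ?_⟩
      have e1 : (u * w * v) (v⁻¹ j) = u (w (v (v⁻¹ j))) := rfl
      have e2 : v (v⁻¹ j) = j := by simp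
      rw [e1, hu, e2, ← hv (v⁻¹ j), e2]
      exact hj'

lemma symTab_surjective (ν μ : Fin n → ℕ) (hν : ∑ i, ν i = n) (hμ : ∑ i, μ i = n) :
    Function.Surjective (symTab ν μ hν hμ) := by
  rintro ⟨A, hA1, hA2⟩
  -- a function with prescribed fibres
  have hcard : Fintype.card (Σ p : Fin n × Fin n, Fin (A p.1 p.2)) = Fintype.card (Fin n) := by
    rw [Fintype.card_sigma, Fintype.card_fin]
    simp only [Fintype.card_fin]
    rw [Fintype.sum_prod_type]
    simp only [hA1, hν]
  let e := Fintype.equivOfCardEq hcard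
  let f : Fin n → Fin n × Fin n := fun j => (e.symm j).1
  have hf : ∀ a b, (Finset.univ.filter (fun j => f j = (a, b))).card = A a b := by
    intro a b
    have h1 : (Finset.univ.filter (fun j => f j = (a, b))).card =
        (Finset.univ.filter (fun x : (Σ p : Fin n × Fin n, Fin (A p.1 p.2)) => x.1 = (a, b))).card := by
      apply Finset.card_bij (fun j _ => e.symm j)
      · intro j hj
        exact Finset.mem_filter.2 ⟨Finset.mem_univ _, (Finset.mem_filter.1 hj).2⟩
      · intro i _ j _ hij; exact e.symm.injective hij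
      · intro x hx
        refine ⟨e x, Finset.mem_filter.2 ⟨Finset.mem_univ _, ?_⟩, by simp⟩
        simpa [f] using (Finset.mem_filter.1 hx).2
    have h2 : Finset.univ.filter (fun x : (Σ p : Fin n × Fin n, Fin (A p.1 p.2)) => x.1 = (a, b)) =
        ({(a, b)} : Finset (Fin n × Fin n)).sigma (fun _ => Finset.univ) := by
      ext x
      simp
    rw [h1, h2, Finset.card_sigma, Finset.sum_singleton, Finset.card_univ, Fintype.card_fin]
  -- match second components with labels of μ
  obtain ⟨v, hv⟩ := exists_perm_of_fiber (fun j => (f j).2) (fun j => labF μ hμ j) (by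
    intro b
    rw [card_labF μ hμ b, ← hA2 b,
      Finset.card_eq_sum_card_fiberwise (f := fun j => (f j).1) (t := Finset.univ) (fun _ _ => Finset.mem_coe.2 (Finset.mem_univ _))]
    apply Finset.sum_congr rfl
    intro a _
    rw [Finset.filter_filter, ← hf a b]
    congr 1
    ext j
    simp only [Finset.mem_filter, Finset.mem_univ, true_and, Prod.ext_iff]
    tauto)
  obtain ⟨w, hw⟩ := exists_perm_of_fiber (fun j => labF ν hν j) (fun j => (f (v j)).1) (by
    intro a
    rw [card_labF ν hν a, ← hA1 a]
    have h1 : (Finset.univ.filter (fun j => (f (v j)).1 = a)).card = (Finset.univ.filter (fun j => (f j).1 = a)).card := by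
      apply Finset.card_bij (fun j _ => v j)
      · intro j hj; simpa using hj
      · intro i _ j _ hij; exact v.injective hij
      · intro j hj
        exact ⟨v⁻¹ j, by simpa using hj, by simp⟩
    rw [h1, Finset.card_eq_sum_card_fiberwise (f := fun j => (f j).2) (t := Finset.univ) (fun _ _ => Finset.mem_coe.2 (Finset.mem_univ _))]
    apply Finset.sum_congr rfl
    intro b _
    rw [Finset.filter_filter, ← hf a b]
    congr 1
    ext j
    simp only [Finset.mem_filter, Finset.mem_univ, true_and, Prod.ext_iff])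
  refine ⟨w, ?_⟩
  apply Subtype.ext
  funext a b
  rw [symTab_apply]
  simp only
  rw [← hf a b]
  apply Finset.card_bij (fun j _ => v j)
  · intro j hj
    simp only [Finset.mem_filter, Finset.mem_univ, true_and] at hj ⊢
    rw [hw, ← hv] at hj
    exact Prod.ext hj.1 hj.2
  · intro i _ j _ hij; exact v.injective hij
  · intro j hj
    simp only [Finset.mem_filter, Finset.mem_univ, true_and] at hj
    refine ⟨v⁻¹ j, ?_, by simp⟩
    simp only [Finset.mem_filter, Finset.mem_univ, true_and]
    rw [hw, ← hv]
    have e2 : v (v⁻¹ j) = j := by simp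
    rw [e2, hj]
    exact ⟨rfl, rfl⟩

instance finiteTab (ν μ : Fin n → ℕ) : Finite (Tab ν μ) := by
  have : Finite (Fin n → Fin n → Fin ((∑ i, ν i) + 1)) := inferInstance
  refine Finite.of_injective (β := Fin n → Fin n → Fin ((∑ i, ν i) + 1))
    (fun A a b => ⟨A.1 a b, ?_⟩) ?_
  · have h1 := A.2.1 a
    have h2 : A.1 a b ≤ ∑ b, A.1 a b := Finset.single_le_sum (f := fun b => A.1 a b) (fun _ _ => Nat.zero_le _) (Finset.mem_univ b)
    have h3 : ν a ≤ ∑ i, ν i := Finset.single_le_sum (f := ν) (fun _ _ => Nat.zero_le _) (Finset.mem_univ a)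
    omega
  · intro A B h
    apply Subtype.ext
    funext a b
    have := congrFun (congrFun h a) b
    simpa using this

/-- inner product of Young permutation characters -/
theorem sym_inner (ν μ : Fin n → ℕ) (hν : ∑ i, ν i = n) (hμ : ∑ i, μ i = n) :
    ∑ σ : Equiv.Perm (Fin n), Cfsg.fixedPointCharacter (Cfsg.youngSubgroup ν) σ *
      Cfsg.fixedPointCharacter (Cfsg.youngSubgroup μ) σ = (Nat.card (Equiv.Perm (Fin n)) : ℂ) * Nat.card (Tab ν μ) := by
  have := sum_fix_mul_fix (Cfsg.youngSubgroup ν) (Cfsg.youngSubgroup μ) (symTab ν μ hν hμ)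
    (symTab_surjective ν μ hν hμ) (fun g g' => symTab_eq_iff ν μ hν hμ g g')
  have h2 := congrArg (fun x : ℕ => (x : ℂ)) this
  push_cast at h2
  exact h2

end Cfsg.Agent.H40
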