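import Mathlib
import Cfsg.Prelude.Def_LinearParabolics
import Cfsg.Agent.H40.CompLabel
import Cfsg.Agent.H40.BurnDC
import Cfsg.Agent.H40.SymTables
import Cfsg.Agent.H40.GLBruhat

set_option autoImplicit false

namespace Cfsg.Agent.H40

open Matrix

variable {F : Type*} [Field F] {n : ℕ}

/-- vectors supported on a set of coordinates. -/
def supp (F : Type*) [Field F] {n : ℕ} (S : Finset (Fin n)) : Submodule F (Fin n → F) where
  carrier := {v | ∀ i, i ∉ S → v i = 0}
  zero_mem' := fun _ _ => rfl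
  add_mem' := by
    intro a b ha hb i hi
    rw [Pi.add_apply, ha i hi, hb i hi, add_zero]
  smul_mem' := by
    intro c a ha i hi
    rw [Pi.smul_apply, ha i hi, smul_zero]

lemma mem_supp (S : Finset (Fin n)) (v : Fin n → F) : v ∈ supp F S ↔ ∀ i, i ∉ S → v i = 0 := Iff.rfl

lemma finrank_supp (S : Finset (Fin n)) : Module.finrank F (supp F S) = S.card := by
  have e : supp F S ≃ₗ[F] (S → F) :=
    { toFun := fun v i => v.1 i
      invFun := fun f => ⟨fun i => if h : i ∈ S then f ⟨i, h⟩ else 0, fun i hi => by simp [hi]⟩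
      map_add' := fun _ _ => rfl
      map_smul' := fun _ _ => rfl
      left_inv := by
        intro v
        ext i
        by_cases h : i ∈ S
        · simp [h]
        · simp only [h, dite_false]
          exact (v.2 i h).symm
      right_inv := by
        intro f
        ext i
        simp }
  rw [e.finrank_eq, Module.finrank_fintype_fun_eq_card]
  simp

lemma supp_inf (S T : Finset (Fin n)) : supp F S ⊓ supp F T = supp F (S ∩ T) := by
  ext v
  simp only [Submodule.mem_inf, mem_supp, Finset.mem_inter]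
  constructor
  · rintro ⟨h1, h2⟩ i hi
    by_cases h : i ∈ S
    · exact h2 i (fun h' => hi ⟨h, h'⟩)
    · exact h1 i h
  · intro h
    exact ⟨fun i hi => h i (fun h' => hi h'.1), fun i hi => h i (fun h' => hi h'.2)⟩

/-- action of `GL` on submodules -/
def gmap (g : GL (Fin n) F) (W : Submodule F (Fin n → F)) : Submodule F (Fin n → F) :=
  W.map (Matrix.mulVecLin (g : Matrix (Fin n) (Fin n) F))

lemma mem_gmap (g : GL (Fin n) F) (W : Submodule F (Fin n → F)) (v : Fin n → F) :
    v ∈ gmap g W ↔ ((g⁻¹ : GL (Fin n) F) : Matrix (Fin n) (Fin n) F) *ᵥ v ∈ W := by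
  constructor
  · rintro ⟨w, hw, rfl⟩
    rw [Matrix.mulVecLin_apply, Matrix.mulVec_mulVec, ← Units.val_mul, inv_mul_cancel]
    simpa using hw
  · intro h
    refine ⟨_, h, ?_⟩
    rw [Matrix.mulVecLin_apply, Matrix.mulVec_mulVec, ← Units.val_mul, mul_inv_cancel]
    simp

lemma gmap_mul (g h : GL (Fin n) F) (W : Submodule F (Fin n → F)) : gmap (g * h) W = gmap g (gmap h W) := by
  ext v
  rw [mem_gmap, mem_gmap, mem_gmap, Matrix.mulVec_mulVec, ← Units.val_mul, _root_.mul_inv_rev]

lemma gmap_inf (g : GL (Fin n) F) (W W' : Submodule F (Fin n → F)) : gmap g (W ⊓ W') = gmap g W ⊓ gmap g W' := by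
  ext v
  rw [Submodule.mem_inf, mem_gmap, mem_gmap, mem_gmap, Submodule.mem_inf]

lemma finrank_gmap (g : GL (Fin n) F) (W : Submodule F (Fin n → F)) :
    Module.finrank F (gmap g W) = Module.finrank F W := by
  have hinj : Function.Injective (Matrix.mulVecLin (g : Matrix (Fin n) (Fin n) F)) := by
    intro v w hvw
    have := congrArg (fun u => ((g⁻¹ : GL (Fin n) F) : Matrix (Fin n) (Fin n) F) *ᵥ u) hvw
    simp only [Matrix.mulVecLin_apply, Matrix.mulVec_mulVec, ← Units.val_mul, inv_mul_cancel] at this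
    simpa using this
  exact (LinearEquiv.finrank_eq (Submodule.equivMapOfInjective _ hinj W)).symm

/-- coordinates with label at most `a`. -/
def levF (μ : Fin n → ℕ) (hμ : ∑ i, μ i = n) (a : Fin n) : Finset (Fin n) :=
  Finset.univ.filter (fun i => labF μ hμ i ≤ a)

lemma mem_levF (μ : Fin n → ℕ) (hμ : ∑ i, μ i = n) (a i : Fin n) : i ∈ levF μ hμ a ↔ labF μ hμ i ≤ a := by
  simp [levF]

lemma upper_mem_parabolic (μ : Fin n → ℕ) (g : GL (Fin n) F)
    (hg : (g : Matrix (Fin n) (Fin n) F).BlockTriangular id) : g ∈ Cfsg.parabolicGL n F μ := by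
  change (g : Matrix (Fin n) (Fin n) F).BlockTriangular (Cfsg.compLabel μ)
  intro i j hij
  apply hg
  by_contra hcon
  have : i ≤ j := not_lt.1 hcon
  exact absurd hij (not_lt.2 (compLabel_mono μ this))

lemma parabolic_stable (μ : Fin n → ℕ) (hμ : ∑ i, μ i = n) (g : GL (Fin n) F)
    (hg : g ∈ Cfsg.parabolicGL n F μ) (a : Fin n) (v : Fin n → F) (hv : v ∈ supp F (levF μ hμ a)) :
    (g : Matrix (Fin n) (Fin n) F) *ᵥ v ∈ supp F (levF μ hμ a) := by
  have hg' : (g : Matrix (Fin n) (Fin n) F).BlockTriangular (Cfsg.compLabel μ) := hg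
  intro i hi
  rw [mem_levF, not_le] at hi
  rw [Matrix.mulVec, dotProduct]
  apply Finset.sum_eq_zero
  intro j _
  by_cases hj : j ∈ levF μ hμ a
  · rw [mem_levF] at hj
    have : Cfsg.compLabel μ j < Cfsg.compLabel μ i := lt_of_le_of_lt hj hi
    rw [hg' this, zero_mul]
  · rw [hv j hj, mul_zero]

lemma gmap_parabolic (μ : Fin n → ℕ) (hμ : ∑ i, μ i = n) (g : GL (Fin n) F)
    (hg : g ∈ Cfsg.parabolicGL n F μ) (a : Fin n) :
    gmap g (supp F (levF μ hμ a)) = supp F (levF μ hμ a) := by
  ext v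
  rw [mem_gmap]
  constructor
  · intro h
    have := parabolic_stable μ hμ g hg a _ h
    rw [Matrix.mulVec_mulVec, ← Units.val_mul, mul_inv_cancel] at this
    simpa using this
  · intro h
    exact parabolic_stable μ hμ g⁻¹ (Subgroup.inv_mem _ hg) a _ h

lemma gmap_perm (σ : Equiv.Perm (Fin n)) (S : Finset (Fin n)) :
    gmap (permGL F n σ) (supp F S) = supp F (S.map σ.toEmbedding) := by
  ext v
  rw [mem_gmap, ← map_inv, permGL_coe, mem_supp, mem_supp]
  have h : ∀ i, (permM F σ⁻¹ *ᵥ v) i = v (σ i) := by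
    intro i
    rw [Matrix.mulVec, dotProduct, Finset.sum_eq_single (σ i)]
    · rw [permM_apply, if_pos (by simp), one_mul]
    · intro b _ hb
      rw [permM_apply, if_neg, zero_mul]
      intro hh
      apply hb
      rw [hh]
      simp
    · simp
  constructor
  · intro hv i hi
    have := hv (σ.symm i) (by
      intro h'
      apply hi
      rw [Finset.mem_map]
      exact ⟨_, h', by simp⟩)
    rw [h] at this
    simpa using this
  · intro hv i hi
    rw [h]
    apply hv
    intro h'
    rw [Finset.mem_map] at h'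
    obtain ⟨j, hj, hji⟩ := h'
    have : j = i := σ.injective hji
    exact hi (this ▸ hj)

/-- the relative position invariant -/
noncomputable def relpos (ν μ : Fin n → ℕ) (hν : ∑ i, ν i = n) (hμ : ∑ i, μ i = n) (g : GL (Fin n) F)
    (a b : Fin n) : ℕ :=
  Module.finrank F (supp F (levF ν hν a) ⊓ gmap g (supp F (levF μ hμ b)) : Submodule F (Fin n → F))

lemma relpos_mul (ν μ : Fin n → ℕ) (hν : ∑ i, ν i = n) (hμ : ∑ i, μ i = n) (p g q : GL (Fin n) F)
    (hp : p ∈ Cfsg.parabolicGL n F ν) (hq : q ∈ Cfsg.parabolicGL n F μ) (a b : Fin n) :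
    relpos ν μ hν hμ (p * g * q) a b = relpos ν μ hν hμ g a b := by
  unfold relpos
  rw [gmap_mul, gmap_parabolic μ hμ q hq, gmap_mul]
  conv_lhs => rw [← gmap_parabolic ν hν p hp a, ← gmap_inf]
  rw [finrank_gmap]

lemma relpos_perm (ν μ : Fin n → ℕ) (hν : ∑ i, ν i = n) (hμ : ∑ i, μ i = n) (σ : Equiv.Perm (Fin n)) (a b : Fin n) :
    relpos (F := F) ν μ hν hμ (permGL F n σ) a b =
      (Finset.univ.filter (fun j => labF ν hν (σ j) ≤ a ∧ labF μ hμ j ≤ b)).card := by
  unfold relpos
  rw [gmap_perm, supp_inf, finrank_supp]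
  symm
  apply Finset.card_bij (fun j _ => σ j)
  · intro j hj
    simp only [Finset.mem_filter, Finset.mem_univ, true_and] at hj
    rw [Finset.mem_inter, mem_levF, Finset.mem_map]
    exact ⟨hj.1, j, (mem_levF _ _ _ _).2 hj.2, rfl⟩
  · intro i _ j _ hij
    exact σ.injective hij
  · intro i hi
    rw [Finset.mem_inter, mem_levF, Finset.mem_map] at hi
    obtain ⟨h1, j, hj, rfl⟩ := hi
    refine ⟨j, ?_, rfl⟩
    simp only [Finset.mem_filter, Finset.mem_univ, true_and]
    exact ⟨h1, (mem_levF _ _ _ _).1 hj⟩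

lemma single_cumul {X : Type*} [Fintype X] (f f' : X → Fin n) (Q Q' : X → Prop) [DecidablePred Q] [DecidablePred Q']
    (h : ∀ a : Fin n, (Finset.univ.filter (fun j => f j ≤ a ∧ Q j)).card = (Finset.univ.filter (fun j => f' j ≤ a ∧ Q' j)).card)
    (a : Fin n) : (Finset.univ.filter (fun j => f j = a ∧ Q j)).card = (Finset.univ.filter (fun j => f' j = a ∧ Q' j)).card := by
  by_cases ha : a.val = 0
  · have h1 := h a
    have e1 : Finset.univ.filter (fun j => f j ≤ a ∧ Q j) = Finset.univ.filter (fun j => f j = a ∧ Q j) := by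
      apply Finset.filter_congr
      intro j _
      rw [Fin.le_def, Fin.ext_iff]
      constructor
      · rintro ⟨h1, h2⟩; exact ⟨by omega, h2⟩
      · rintro ⟨h1, h2⟩; exact ⟨by omega, h2⟩
    have e2 : Finset.univ.filter (fun j => f' j ≤ a ∧ Q' j) = Finset.univ.filter (fun j => f' j = a ∧ Q' j) := by
      apply Finset.filter_congr
      intro j _
      rw [Fin.le_def, Fin.ext_iff]
      constructor
      · rintro ⟨h1, h2⟩; exact ⟨by omega, h2⟩
      · rintro ⟨h1, h2⟩; exact ⟨by omega, h2⟩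
    rw [e1, e2] at h1
    exact h1
  · let b : Fin n := ⟨a.val - 1, by have := a.2; omega⟩
    have hb : a.val = b.val + 1 := by simp only [b]; omega
    have key : ∀ (g : X → Fin n) (R : X → Prop) [DecidablePred R],
        (Finset.univ.filter (fun j => g j ≤ a ∧ R j)).card = (Finset.univ.filter (fun j => g j ≤ b ∧ R j)).card +
          (Finset.univ.filter (fun j => g j = a ∧ R j)).card := by
      intro g R _
      classical
      rw [← Finset.card_union_of_disjoint]
      · congr 1
        ext j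
        simp only [Finset.mem_filter, Finset.mem_univ, true_and, Finset.mem_union, Fin.le_def, Fin.ext_iff]
        constructor
        · rintro ⟨h1, h2⟩
          by_cases h3 : (g j).val = a.val
          · exact Or.inr ⟨h3, h2⟩
          · exact Or.inl ⟨by omega, h2⟩
        · rintro (⟨h1, h2⟩ | ⟨h1, h2⟩)
          · exact ⟨by omega, h2⟩
          · exact ⟨by omega, h2⟩
      · rw [Finset.disjoint_filter]
        intro j _ h1 h2
        have h3 := h1.1
        have h4 := h2.1
        rw [Fin.le_def] at h3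
        rw [Fin.ext_iff] at h4
        omega
    have k1 := key f Q
    have k2 := key f' Q'
    have h1 := h a
    have h2 := h b
    omega

lemma double_cumul {X : Type*} [Fintype X] (f f' g g' : X → Fin n)
    (h : ∀ a b : Fin n, (Finset.univ.filter (fun j => f j ≤ a ∧ g j ≤ b)).card = (Finset.univ.filter (fun j => f' j ≤ a ∧ g' j ≤ b)).card)
    (a b : Fin n) : (Finset.univ.filter (fun j => f j = a ∧ g j = b)).card = (Finset.univ.filter (fun j => f' j = a ∧ g' j = b)).card := by
  have h1 : ∀ a b : Fin n, (Finset.univ.filter (fun j => f j = a ∧ g j ≤ b)).card = (Finset.univ.filter (fun j => f' j = a ∧ g' j ≤ b)).card :=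
    fun a b => single_cumul f f' (fun j => g j ≤ b) (fun j => g' j ≤ b) (fun a => h a b) a
  have h2 := single_cumul g g' (fun j => f j = a) (fun j => f' j = a) (fun b => by
    have := h1 a b
    simpa only [and_comm] using this) b
  simpa only [and_comm] using h2

/-- chosen Bruhat representative -/
noncomputable def bruhatPerm (g : GL (Fin n) F) : Equiv.Perm (Fin n) := (exists_bruhat g).choose_spec.choose_spec.2.2.choose

lemma bruhatPerm_spec (g : GL (Fin n) F) : ∃ b b' : GL (Fin n) F, (b : Matrix (Fin n) (Fin n) F).BlockTriangular id ∧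
      (b' : Matrix (Fin n) (Fin n) F).BlockTriangular id ∧ g = b * permGL F n (bruhatPerm g) * b' :=
  ⟨_, _, (exists_bruhat g).choose_spec.choose_spec.1, (exists_bruhat g).choose_spec.choose_spec.2.1,
    (exists_bruhat g).choose_spec.choose_spec.2.2.choose_spec⟩

lemma relpos_bruhat (ν μ : Fin n → ℕ) (hν : ∑ i, ν i = n) (hμ : ∑ i, μ i = n) (g : GL (Fin n) F) (a b : Fin n) :
    relpos ν μ hν hμ g a b = relpos (F := F) ν μ hν hμ (permGL F n (bruhatPerm g)) a b := by
  obtain ⟨p, q, hp, hq, h⟩ := bruhatPerm_spec g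
  conv_lhs => rw [h]
  exact relpos_mul ν μ hν hμ _ _ _ (upper_mem_parabolic ν p hp) (upper_mem_parabolic μ q hq) a b

lemma symTab_of_relpos (ν μ : Fin n → ℕ) (hν : ∑ i, ν i = n) (hμ : ∑ i, μ i = n) (σ τ : Equiv.Perm (Fin n))
    (h : ∀ a b, relpos (F := F) ν μ hν hμ (permGL F n σ) a b = relpos (F := F) ν μ hν hμ (permGL F n τ) a b) :
    symTab ν μ hν hμ σ = symTab ν μ hν hμ τ := by
  apply Subtype.ext
  funext a b
  rw [symTab_apply, symTab_apply]
  apply double_cumul (fun j => labF ν hν (σ j)) (fun j => labF ν hν (τ j)) (fun j => labF μ hμ j) (fun j => labF μ hμ j)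
  intro a b
  rw [← relpos_perm (F := F), ← relpos_perm (F := F)]
  exact h a b

/-- table of a `GL` element -/
noncomputable def glTab (ν μ : Fin n → ℕ) (hν : ∑ i, ν i = n) (hμ : ∑ i, μ i = n) (g : GL (Fin n) F) : Tab ν μ :=
  symTab ν μ hν hμ (bruhatPerm g)

lemma permGL_mem_parabolic (μ : Fin n → ℕ) (σ : Equiv.Perm (Fin n)) (h : σ ∈ Cfsg.youngSubgroup μ) :
    permGL F n σ ∈ Cfsg.parabolicGL n F μ := by
  change (permM F σ).BlockTriangular (Cfsg.compLabel μ)
  intro i j hij
  rw [permM_apply, if_neg]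
  rintro rfl
  have := h j
  rw [this] at hij
  exact lt_irrefl _ hij

lemma glTab_eq_iff (ν μ : Fin n → ℕ) (hν : ∑ i, ν i = n) (hμ : ∑ i, μ i = n) (g g' : GL (Fin n) F) :
    glTab ν μ hν hμ g = glTab ν μ hν hμ g' ↔
      ∃ p ∈ Cfsg.parabolicGL n F ν, ∃ q ∈ Cfsg.parabolicGL n F μ, g' = p * g * q := by
  constructor
  · intro h
    obtain ⟨u, hu, v, hv, huv⟩ := (symTab_eq_iff ν μ hν hμ _ _).1 h
    obtain ⟨b, c, hb, hc, hg⟩ := bruhatPerm_spec g
    obtain ⟨b', c', hb', hc', hg'⟩ := bruhatPerm_spec g'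
    have hb := upper_mem_parabolic ν b hb
    have hc := upper_mem_parabolic μ c hc
    have hb' := upper_mem_parabolic ν b' hb'
    have hc' := upper_mem_parabolic μ c' hc'
    refine ⟨b' * permGL F n u * b⁻¹, ?_, c⁻¹ * permGL F n v * c', ?_, ?_⟩
    · exact Subgroup.mul_mem _ (Subgroup.mul_mem _ hb' (permGL_mem_parabolic ν u hu)) (Subgroup.inv_mem _ hb)
    · exact Subgroup.mul_mem _ (Subgroup.mul_mem _ (Subgroup.inv_mem _ hc) (permGL_mem_parabolic μ v hv)) hc'
    · rw [hg', huv, map_mul, map_mul]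
      conv_rhs => rw [hg]
      group
  · rintro ⟨p, hp, q, hq, rfl⟩
    apply symTab_of_relpos (F := F)
    intro a b
    rw [← relpos_bruhat, ← relpos_bruhat, relpos_mul ν μ hν hμ p g q hp hq]

lemma glTab_surjective (ν μ : Fin n → ℕ) (hν : ∑ i, ν i = n) (hμ : ∑ i, μ i = n) :
    Function.Surjective (glTab (F := F) ν μ hν hμ) := by
  intro A
  obtain ⟨σ, hσ⟩ := symTab_surjective ν μ hν hμ A
  refine ⟨permGL F n σ, ?_⟩
  rw [← hσ]
  apply symTab_of_relpos (F := F)
  intro a b
  rw [← relpos_bruhat]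

/-- inner product of flag permutation characters -/
theorem gl_inner [Fintype F] [DecidableEq F] (ν μ : Fin n → ℕ) (hν : ∑ i, ν i = n) (hμ : ∑ i, μ i = n) :
    ∑ g : GL (Fin n) F, Cfsg.fixedPointCharacter (Cfsg.parabolicGL n F ν) g *
      Cfsg.fixedPointCharacter (Cfsg.parabolicGL n F μ) g = (Nat.card (GL (Fin n) F) : ℂ) * Nat.card (Tab ν μ) := by
  have := sum_fix_mul_fix (Cfsg.parabolicGL n F ν) (Cfsg.parabolicGL n F μ) (glTab ν μ hν hμ)
    (glTab_surjective ν μ hν hμ) (fun g g' => glTab_eq_iff ν μ hν hμ g g')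
  have h2 := congrArg (fun x : ℕ => (x : ℂ)) this
  push_cast at h2
  exact h2

end Cfsg.Agent.H40
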