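import Mathlib
import Cfsg.Prelude.Def_LinearParabolics
import Cfsg.Agent.H40.CompLabel
import Cfsg.Agent.H40.GLTables

set_option autoImplicit false

namespace Cfsg.Agent.H40

open Module

/-- number of linearly independent families adapted to an increasing family of subspaces. -/
theorem card_LI_in {K V : Type*} [Field K] [Fintype K] [AddCommGroup V] [Module K V] [Finite V] (k : ℕ)
    (W : Fin k → Submodule K V) (hW : Monotone W) (d : Fin k → ℕ) (hd : ∀ i, finrank K (W i) = d i) :
    Nat.card {s : Fin k → V // LinearIndependent K s ∧ ∀ i, s i ∈ W i} =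
      ∏ i : Fin k, (Fintype.card K ^ d i - Fintype.card K ^ i.val) := by
  induction k with
  | zero =>
    rw [Finset.univ_eq_empty, Finset.prod_empty]
    have : Unique {s : Fin 0 → V // LinearIndependent K s ∧ ∀ i, s i ∈ W i} :=
      { default := ⟨Fin.elim0, linearIndependent_empty_type, fun i => i.elim0⟩
        uniq := fun s => Subtype.ext (Subsingleton.elim _ _) }
    exact Nat.card_unique
  | succ k ih =>
    have e : {s : Fin (k+1) → V // LinearIndependent K s ∧ ∀ i, s i ∈ W i} ≃
        (Σ s : {s : Fin k → V // LinearIndependent K s ∧ ∀ i, s i ∈ W i.castSucc},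
          ((W (Fin.last k) : Set V) \ (Submodule.span K (Set.range s.1) : Set V) : Set V)) :=
      { toFun := fun s => ⟨⟨Fin.init s.1, by
            have h := s.2.1
            rw [← Fin.snoc_init_self s.1] at h
            exact (linearIndependent_finSnoc.1 h).1, fun i => s.2.2 i.castSucc⟩,
          ⟨s.1 (Fin.last k), s.2.2 (Fin.last k), by
            have h := s.2.1
            rw [← Fin.snoc_init_self s.1] at h
            exact (linearIndependent_finSnoc.1 h).2⟩⟩
        invFun := fun p => ⟨Fin.snoc p.1.1 p.2.1, linearIndependent_finSnoc.2 ⟨p.1.2.1, p.2.2.2⟩, by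
          intro i
          refine Fin.lastCases ?_ (fun j => ?_) i
          · rw [Fin.snoc_last]; exact p.2.2.1
          · rw [Fin.snoc_castSucc]; exact p.1.2.2 j⟩
        left_inv := fun s => Subtype.ext (Fin.snoc_init_self s.1)
        right_inv := fun p => by
          rcases p with ⟨⟨s, hs⟩, ⟨x, hx⟩⟩
          have h1 : Fin.init (Fin.snoc s x : Fin (k+1) → V) = s := Fin.init_snoc _ _
          have h2 : (Fin.snoc s x : Fin (k+1) → V) (Fin.last k) = x := Fin.snoc_last _ _
          exact Sigma.subtype_ext (Subtype.ext h1) h2 }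
    have hcard : ∀ s : {s : Fin k → V // LinearIndependent K s ∧ ∀ i, s i ∈ W i.castSucc},
        Nat.card ((W (Fin.last k) : Set V) \ (Submodule.span K (Set.range s.1) : Set V) : Set V) =
          Fintype.card K ^ d (Fin.last k) - Fintype.card K ^ k := by
      intro s
      have hle : (Submodule.span K (Set.range s.1) : Set V) ⊆ (W (Fin.last k) : Set V) := by
        have : Submodule.span K (Set.range s.1) ≤ W (Fin.last k) := by
          rw [Submodule.span_le]
          rintro _ ⟨i, rfl⟩
          exact hW (Fin.le_last _) (s.2.2 i)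
        exact this
      rw [Nat.card_coe_set_eq, Set.ncard_sdiff hle (Set.toFinite _)]
      have h1 : (W (Fin.last k) : Set V).ncard = Fintype.card K ^ d (Fin.last k) := by
        rw [← Nat.card_coe_set_eq, ← hd, ← Nat.card_eq_fintype_card]
        exact Module.natCard_eq_pow_finrank (K := K) (V := W (Fin.last k))
      have h2 : (Submodule.span K (Set.range s.1) : Set V).ncard = Fintype.card K ^ k := by
        have h3 : finrank K (Submodule.span K (Set.range s.1)) = k := by
          rw [finrank_span_eq_card s.2.1, Fintype.card_fin]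
        rw [← Nat.card_coe_set_eq, ← Nat.card_eq_fintype_card]
        conv_rhs => rw [← h3]
        exact Module.natCard_eq_pow_finrank (K := K) (V := Submodule.span K (Set.range s.1))
      rw [h1, h2]
    have := Fintype.ofFinite {s : Fin k → V // LinearIndependent K s ∧ ∀ i, s i ∈ W i.castSucc}
    rw [Nat.card_congr e, Nat.card_sigma, Finset.sum_congr rfl (fun s _ => hcard s), Finset.sum_const, Finset.card_univ,
      smul_eq_mul, ← Nat.card_eq_fintype_card,
      ih (fun i => W i.castSucc) (fun a b hab => hW (Fin.castSucc_le_castSucc_iff.2 hab)) (fun i => d i.castSucc) (fun i => hd i.castSucc),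
      Fin.prod_univ_castSucc]
    rfl

variable {n : ℕ}

lemma labF_eq_iff (μ : Fin n → ℕ) (hμ : ∑ i, μ i = n) (i a : Fin n) :
    labF μ hμ i = a ↔ psum μ a - μ a ≤ i.val ∧ i.val < psum μ a := by
  have h1 : labF μ hμ i = a ↔ Cfsg.compLabel μ i = a.val := by
    rw [Fin.ext_iff]; rfl
  rw [h1]
  have h2 := compLabel_le_iff μ i a
  by_cases ha : a.val = 0
  · rw [psum_zero μ a ha, Nat.sub_self]
    rw [psum_zero μ a ha] at h2
    rw [← h2]
    omega
  · let b : Fin n := ⟨a.val - 1, by have := a.2; omega⟩
    have hb : a.val = b.val + 1 := by simp only [b]; omega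
    have h3 := psum_succ μ b a hb
    have h4 := compLabel_le_iff μ i b
    rw [h3, Nat.add_sub_cancel]
    rw [h3] at h2
    omega

lemma finrank_lev {F : Type*} [Field F] (μ : Fin n → ℕ) (hμ : ∑ i, μ i = n) (a : Fin n) :
    finrank F (supp F (levF μ hμ a)) = psum μ a := by
  rw [finrank_supp, ← card_label_le μ hμ a]
  congr 1

/-- order of the parabolic subgroup -/
theorem card_parabolic {F : Type*} [Field F] [Fintype F] (μ : Fin n → ℕ) (hμ : ∑ i, μ i = n) :
    Nat.card (Cfsg.parabolicGL n F μ) =
      ∏ i : Fin n, (Fintype.card F ^ psum μ (labF μ hμ i) - Fintype.card F ^ i.val) := by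
  rw [← card_LI_in n (fun i => supp F (levF μ hμ (labF μ hμ i))) ?_ (fun i => psum μ (labF μ hμ i))
    (fun i => finrank_lev μ hμ _)]
  · refine Nat.card_congr ((Equiv.subtypeEquiv (Matrix.equiv_GL_linearindependent n) (q := fun s => ∀ i, s.1 i ∈ supp F (levF μ hμ (labF μ hμ i))) ?_).trans
      (Equiv.subtypeSubtypeEquivSubtypeInter _ (fun s : Fin n → Fin n → F => ∀ i, s i ∈ supp F (levF μ hμ (labF μ hμ i)))))
    intro g
    have h1 : g ∈ Cfsg.parabolicGL n F μ ↔ (g : Matrix (Fin n) (Fin n) F).BlockTriangular (Cfsg.compLabel μ) := Iff.rfl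
    rw [h1]
    constructor
    · intro h i j hj
      rw [mem_levF, not_le] at hj
      exact h hj
    · intro h i j hij
      apply h j i
      rw [mem_levF, not_le]
      exact hij
  · intro i j hij v hv k hk
    apply hv k
    intro hk'
    apply hk
    rw [mem_levF] at hk' ⊢
    exact hk'.trans (compLabel_mono μ hij)

lemma pow_sub_pow_eq (q a b : ℕ) (hq : 1 ≤ q) (h : b ≤ a) :
    q ^ a - q ^ b = (q ^ b * (q - 1)) * ∑ l ∈ Finset.range (a - b), q ^ l := by
  have h1 : q ^ (a - b) - 1 = (q - 1) * ∑ l ∈ Finset.range (a - b), q ^ l := by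
    rw [mul_comm, geom_sum_mul_of_one_le hq]
  rw [mul_assoc, ← h1, Nat.mul_sub, mul_one, ← pow_add]
  congr 2
  omega

/-- `q`-integer -/
def qint (q r : ℕ) : ℕ := ∑ l ∈ Finset.range r, q ^ l

/-- `q`-factorial -/
def qfac (q r : ℕ) : ℕ := ∏ j ∈ Finset.range r, qint q (j + 1)

lemma qint_pos (q r : ℕ) (hq : 1 ≤ q) (hr : 1 ≤ r) : 0 < qint q r := by
  unfold qint
  apply Finset.sum_pos
  · intro i _; exact pow_pos hq _
  · exact ⟨0, Finset.mem_range.2 hr⟩

lemma prod_block (q : ℕ) (μ : Fin n → ℕ) (hμ : ∑ i, μ i = n) :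
    ∏ i : Fin n, qint q (psum μ (labF μ hμ i) - i.val) = ∏ a : Fin n, qfac q (μ a) := by
  rw [← Finset.prod_fiberwise_of_maps_to (s := Finset.univ) (t := Finset.univ) (g := fun i => labF μ hμ i)
    (fun _ _ => Finset.mem_univ _)]
  apply Finset.prod_congr rfl
  intro a _
  have h1 : ∀ i ∈ Finset.univ.filter (fun i => labF μ hμ i = a), qint q (psum μ (labF μ hμ i) - i.val) =
      qint q (psum μ a - i.val) := by
    intro i hi
    rw [(Finset.mem_filter.1 hi).2]
  rw [Finset.prod_congr rfl h1]
  unfold qfac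
  have hle := psum_le μ hμ a
  have hμa : μ a ≤ psum μ a := by
    unfold psum
    exact Finset.single_le_sum (f := μ) (fun _ _ => Nat.zero_le _) (by simp)
  apply Finset.prod_bij (fun (i : Fin n) _ => psum μ a - 1 - i.val)
  · intro i hi
    have := (labF_eq_iff μ hμ i a).1 (Finset.mem_filter.1 hi).2
    rw [Finset.mem_range]
    omega
  · intro i hi j hj hij
    have h1 := (labF_eq_iff μ hμ i a).1 (Finset.mem_filter.1 hi).2
    have h2 := (labF_eq_iff μ hμ j a).1 (Finset.mem_filter.1 hj).2
    ext
    omega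
  · intro b hb
    rw [Finset.mem_range] at hb
    refine ⟨⟨psum μ a - 1 - b, by omega⟩, ?_, ?_⟩
    · rw [Finset.mem_filter]
      refine ⟨Finset.mem_univ _, ?_⟩
      rw [labF_eq_iff]
      simp only
      omega
    · simp only
      omega
  · intro i hi
    have := (labF_eq_iff μ hμ i a).1 (Finset.mem_filter.1 hi).2
    congr 1
    omega

/-- index of the parabolic subgroup -/
theorem index_parabolic {F : Type*} [Field F] [Fintype F] (μ : Fin n → ℕ) (hμ : ∑ i, μ i = n) :
    Nat.card (Matrix.GeneralLinearGroup (Fin n) F ⧸ Cfsg.parabolicGL n F μ) * ∏ a : Fin n, qfac (Fintype.card F) (μ a) =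
      qfac (Fintype.card F) n := by
  have hq : 1 < Fintype.card F := Fintype.one_lt_card
  have h1 := Subgroup.card_eq_card_quotient_mul_card_subgroup (Cfsg.parabolicGL n F μ)
  rw [Matrix.card_GL_field, card_parabolic μ hμ] at h1
  have h2 : ∀ i : Fin n, i.val < psum μ (labF μ hμ i) := fun i => ((labF_eq_iff μ hμ i _).1 rfl).2
  have h3 : ∏ i : Fin n, (Fintype.card F ^ n - Fintype.card F ^ i.val) =
      (∏ i : Fin n, (Fintype.card F ^ i.val * (Fintype.card F - 1))) * ∏ i : Fin n, qint (Fintype.card F) (n - i.val) := by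
    rw [← Finset.prod_mul_distrib]
    apply Finset.prod_congr rfl
    intro i _
    exact pow_sub_pow_eq _ _ _ hq.le i.2.le
  have h4 : ∏ i : Fin n, (Fintype.card F ^ psum μ (labF μ hμ i) - Fintype.card F ^ i.val) =
      (∏ i : Fin n, (Fintype.card F ^ i.val * (Fintype.card F - 1))) *
        ∏ i : Fin n, qint (Fintype.card F) (psum μ (labF μ hμ i) - i.val) := by
    rw [← Finset.prod_mul_distrib]
    apply Finset.prod_congr rfl
    intro i _
    exact pow_sub_pow_eq _ _ _ hq.le (h2 i).le
  have h5 : ∏ i : Fin n, qint (Fintype.card F) (n - i.val) = qfac (Fintype.card F) n := by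
    unfold qfac
    rw [← Finset.prod_range_reflect, ← Fin.prod_univ_eq_prod_range]
    apply Finset.prod_congr rfl
    intro i _
    congr 1
    have := i.2
    omega
  rw [h3, h4, h5, prod_block] at h1
  have h6 : 0 < ∏ i : Fin n, (Fintype.card F ^ i.val * (Fintype.card F - 1)) := by
    apply Finset.prod_pos
    intro i _
    exact Nat.mul_pos (pow_pos (by omega) _) (by omega)
  have h7 : (∏ i : Fin n, (Fintype.card F ^ i.val * (Fintype.card F - 1))) *
      (Nat.card (Matrix.GeneralLinearGroup (Fin n) F ⧸ Cfsg.parabolicGL n F μ) * ∏ a : Fin n, qfac (Fintype.card F) (μ a)) =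
      (∏ i : Fin n, (Fintype.card F ^ i.val * (Fintype.card F - 1))) * qfac (Fintype.card F) n := by
    rw [h1]; ring
  exact Nat.eq_of_mul_eq_mul_left h6 h7

end Cfsg.Agent.H40
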