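import Mathlib
import Cfsg.Agent.H40.SymTables

set_option autoImplicit false

namespace Cfsg.Agent.H40

open MvPolynomial

/-- coefficient ring of the alternants -/
abbrev JR (n : ℕ) : Type := MvPolynomial (Fin n) ℤ

/-- geometric series -/
noncomputable def geo {n : ℕ} (l : Fin n) : PowerSeries (JR n) := PowerSeries.mk (fun k => (X l : JR n) ^ k)

/-- complete homogeneous polynomial -/
noncomputable def hh (n m : ℕ) : JR n := PowerSeries.coeff m (∏ l : Fin n, geo l)

/-- the polynomial `∏_{l ≠ k} (1 - y_l t)` -/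
noncomputable def EE {n : ℕ} (k : Fin n) : Polynomial (JR n) :=
  ∏ l ∈ Finset.univ.erase k, (1 - Polynomial.C (X l : JR n) * Polynomial.X)

lemma geo_mul {n : ℕ} (l : Fin n) : geo l * ((1 - Polynomial.C (X l : JR n) * Polynomial.X : Polynomial (JR n)) : PowerSeries (JR n)) = 1 := by
  rw [Polynomial.coe_sub, Polynomial.coe_one, Polynomial.coe_mul, Polynomial.coe_C, Polynomial.coe_X]
  ext m : 1
  rw [mul_sub, mul_one, ← mul_assoc, map_sub]
  cases m with
  | zero => simp [geo]
  | succ m =>
    rw [PowerSeries.coeff_succ_mul_X, mul_comm, PowerSeries.coeff_C_mul]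
    simp only [geo, PowerSeries.coeff_mk, PowerSeries.coeff_one]
    rw [if_neg (by omega), pow_succ]
    ring

lemma prod_geo_mul_EE {n : ℕ} (k : Fin n) : (∏ l : Fin n, geo l) * (EE k : PowerSeries (JR n)) = geo k := by
  have h1 : (EE k : PowerSeries (JR n)) = ∏ l ∈ Finset.univ.erase k,
      ((1 - Polynomial.C (X l : JR n) * Polynomial.X : Polynomial (JR n)) : PowerSeries (JR n)) := by
    unfold EE
    simp only [← Polynomial.coeToPowerSeries.ringHom_apply, map_prod]
  rw [h1, ← Finset.mul_prod_erase Finset.univ (fun l => geo l) (Finset.mem_univ k), mul_assoc, ← Finset.prod_mul_distrib,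
    Finset.prod_eq_one (fun l _ => geo_mul l), mul_one]

lemma EE_coeff_zero {n : ℕ} (k : Fin n) (b : ℕ) (hb : n ≤ b) : (EE k).coeff b = 0 := by
  apply Polynomial.coeff_eq_zero_of_natDegree_lt
  have h1 : (EE k).natDegree ≤ ∑ l ∈ Finset.univ.erase k, 1 := by
    unfold EE
    refine (Polynomial.natDegree_prod_le _ _).trans (Finset.sum_le_sum fun l _ => ?_)
    refine (Polynomial.natDegree_sub_le _ _).trans ?_
    rw [Polynomial.natDegree_one, Nat.zero_max]
    exact (Polynomial.natDegree_C_mul_le _ _).trans Polynomial.natDegree_X_le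
  rw [Finset.sum_const, Finset.card_erase_of_mem (Finset.mem_univ k), Finset.card_univ, Fintype.card_fin, smul_eq_mul, mul_one] at h1
  have := k.pos
  omega

/-- `h_{m-j}`, zero if `j > m`. -/
noncomputable def HH (n m j : ℕ) : JR n := if j ≤ m then hh n (m - j) else 0

lemma sum_HH_EE {n : ℕ} (m : ℕ) (k : Fin n) : ∑ j : Fin n, HH n m j.val * (EE k).coeff j.val = (X k : JR n) ^ m := by
  have h1 := congrArg (PowerSeries.coeff m) (prod_geo_mul_EE k)
  rw [PowerSeries.coeff_mul, Finset.Nat.sum_antidiagonal_eq_sum_range_succ_mk, ← Finset.sum_range_reflect] at h1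
  simp only [geo, PowerSeries.coeff_mk, Polynomial.coeff_coe] at h1
  rw [← h1, Fin.sum_univ_eq_sum_range (fun j => HH n m j * (EE k).coeff j) n]
  have h2 : ∀ j ∈ Finset.range (m+1), PowerSeries.coeff (m + 1 - 1 - j) (∏ l : Fin n, PowerSeries.mk (fun k => (X l : JR n) ^ k)) *
      (EE k).coeff (m - (m + 1 - 1 - j)) = HH n m j * (EE k).coeff j := by
    intro j hj
    rw [Finset.mem_range] at hj
    rw [HH, if_pos (by omega : j ≤ m)]
    have e1 : m + 1 - 1 - j = m - j := by omega
    have e2 : m - (m - j) = j := by omega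
    rw [e1, e2]
    rfl
  rw [Finset.sum_congr rfl h2]
  have h3 : ∀ s t : ℕ, (∀ j, s ≤ j → HH n m j * (EE k).coeff j = 0) → s ≤ t →
      ∑ j ∈ Finset.range t, HH n m j * (EE k).coeff j = ∑ j ∈ Finset.range s, HH n m j * (EE k).coeff j := by
    intro s t hs hst
    symm
    apply Finset.sum_subset (Finset.range_mono hst)
    intro j _ hj
    exact hs j (by simpa using hj)
  have hA : ∀ j, n ≤ j → HH n m j * (EE k).coeff j = 0 := fun j hj => by rw [EE_coeff_zero k j hj, mul_zero]
  have hB : ∀ j, m + 1 ≤ j → HH n m j * (EE k).coeff j = 0 := fun j hj => by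
    rw [HH, if_neg (by omega), zero_mul]
  rcases le_total n (m+1) with h | h
  · rw [h3 n (m+1) hA h]
  · rw [h3 (m+1) n hB h]

lemma hh_zero (n : ℕ) : hh n 0 = 1 := by
  unfold hh
  rw [PowerSeries.coeff_zero_eq_constantCoeff_apply, map_prod]
  apply Finset.prod_eq_one
  intro l _
  rw [← PowerSeries.coeff_zero_eq_constantCoeff_apply]
  simp [geo]

/-- bialternant formula. -/
theorem bialternant {n : ℕ} (lam : Fin n → ℕ) :
    (Matrix.of fun i j : Fin n => HH n (lam i) j.val).det * (Matrix.of fun i k : Fin n => (X k : JR n) ^ i.val).det =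
      (Matrix.of fun i k : Fin n => (X k : JR n) ^ lam i).det := by
  have key : ∀ lam : Fin n → ℕ, (Matrix.of fun i j : Fin n => HH n (lam i) j.val) *
      (Matrix.of fun j k : Fin n => (EE k).coeff j.val) = (Matrix.of fun i k : Fin n => (X k : JR n) ^ lam i) := by
    intro lam
    apply Matrix.ext
    intro i k
    rw [Matrix.mul_apply]
    exact sum_HH_EE (lam i) k
  have h1 : (Matrix.of fun i j : Fin n => HH n i.val j.val).det = 1 := by
    rw [Matrix.det_of_isLowerTriangular]
    · apply Finset.prod_eq_one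
      intro i _
      rw [Matrix.of_apply, HH, if_pos le_rfl, Nat.sub_self, hh_zero]
    · intro i j hij
      have : i < j := hij
      rw [Matrix.of_apply, HH, if_neg]
      exact not_le.2 this
  have h2 := congrArg Matrix.det (key (fun i => i.val))
  rw [Matrix.det_mul, h1, one_mul] at h2
  rw [← h2, ← Matrix.det_mul, key]

lemma prod_X_pow_eq {n : ℕ} (γ : Fin n →₀ ℕ) : (∏ l : Fin n, (X l : JR n) ^ γ l) = monomial γ 1 := by
  rw [MvPolynomial.monomial_eq, C_1, one_mul, Finsupp.prod_fintype]
  intro i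
  exact pow_zero _

lemma hh_eq (n m : ℕ) : hh n m = ∑ γ ∈ Finset.finsuppAntidiag (Finset.univ : Finset (Fin n)) m, (monomial γ 1 : JR n) := by
  unfold hh
  rw [PowerSeries.coeff_prod]
  apply Finset.sum_congr rfl
  intro γ _
  rw [← prod_X_pow_eq]
  apply Finset.prod_congr rfl
  intro l _
  simp [geo]

lemma coeff_prod_hh {n : ℕ} (α : Fin n → ℕ) (β : Fin n →₀ ℕ) :
    coeff β (∏ i, hh n (α i)) = (Nat.card (Tab α β) : ℤ) := by
  classical
  simp only [hh_eq]
  rw [Finset.prod_univ_sum]
  have h1 : ∀ p : Fin n → (Fin n →₀ ℕ), (∏ i, (monomial (p i) 1 : JR n)) = monomial (∑ i, p i) 1 := by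
    intro p
    rw [← prod_X_pow_eq]
    simp only [← prod_X_pow_eq]
    rw [Finset.prod_comm]
    apply Finset.prod_congr rfl
    intro l _
    rw [Finset.prod_pow_eq_pow_sum, Finsupp.finsetSum_apply]
  simp only [h1]
  rw [MvPolynomial.coeff_sum]
  simp only [MvPolynomial.coeff_monomial]
  rw [← Finset.sum_filter, Finset.sum_const, nsmul_eq_mul, mul_one]
  congr 1
  rw [← Nat.card_eq_finsetCard]
  have hmem : ∀ p : Fin n → (Fin n →₀ ℕ),
      p ∈ (Fintype.piFinset fun x => (Finset.univ : Finset (Fin n)).finsuppAntidiag (α x)).filter (fun a => ∑ i, a i = β) ↔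
      (∀ i, ∑ j, p i j = α i) ∧ (∀ j, ∑ i, p i j = β j) := by
    intro p
    rw [Finset.mem_filter, Fintype.mem_piFinset]
    have h2 : (∑ i, p i = β) ↔ ∀ j, ∑ i, p i j = β j := by
      rw [Finsupp.ext_iff]
      simp only [Finsupp.finsetSum_apply]
    rw [h2]
    simp only [Finset.mem_finsuppAntidiag, Finset.subset_univ, and_true]
  refine Nat.card_congr
    { toFun := fun p => ⟨fun i j => p.1 i j, (hmem p.1).1 p.2⟩
      invFun := fun A => ⟨fun i => Finsupp.equivFunOnFinite.symm (A.1 i), (hmem _).2 (by simpa using A.2)⟩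
      left_inv := ?_
      right_inv := ?_ }
  · intro p
    apply Subtype.ext
    funext i
    ext j
    rfl
  · intro A
    rfl

lemma det_HH {n : ℕ} (lam : Fin n → ℕ) : (Matrix.of fun i j : Fin n => HH n (lam i) j.val).det =
    ∑ κ : Equiv.Perm (Fin n), ((Equiv.Perm.sign κ : ℤ) : JR n) *
      (if ∀ i, (κ i).val ≤ lam i then ∏ i, hh n (lam i - (κ i).val) else 0) := by
  rw [← Matrix.det_transpose, Matrix.det_apply']
  apply Finset.sum_congr rfl
  intro κ _
  congr 1
  simp only [Matrix.transpose_apply, Matrix.of_apply]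
  split_ifs with h
  · apply Finset.prod_congr rfl
    intro i _
    rw [HH, if_pos (h i)]
  · push Not at h
    obtain ⟨i, hi⟩ := h
    apply Finset.prod_eq_zero (Finset.mem_univ i)
    rw [HH, if_neg (not_le.2 hi)]

/-- a function as a finitely supported function -/
noncomputable abbrev fs {n : ℕ} (f : Fin n → ℕ) : Fin n →₀ ℕ := Finsupp.equivFunOnFinite.symm f

lemma det_alt {n : ℕ} (lam : Fin n → ℕ) : (Matrix.of fun i k : Fin n => (X k : JR n) ^ lam i).det =
    ∑ κ : Equiv.Perm (Fin n), ((Equiv.Perm.sign κ : ℤ) : JR n) * monomial (fs (fun k => lam (κ k))) 1 := by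
  rw [Matrix.det_apply']
  apply Finset.sum_congr rfl
  intro κ _
  rw [← prod_X_pow_eq]
  rfl

lemma coeff_intCast_mul {n : ℕ} (z : ℤ) (p : JR n) (m : Fin n →₀ ℕ) : coeff m ((z : JR n) * p) = z * coeff m p := by
  have : (z : JR n) = C z := by simp
  rw [this, coeff_C_mul]

lemma strictMono_perm_eq_one {n : ℕ} (f g : Fin n → ℕ) (hf : StrictMono f) (hg : StrictMono g)
    (τ : Equiv.Perm (Fin n)) (h : ∀ k, f (τ k) = g k) : τ = 1 := by
  have : StrictMono τ := by
    intro a b hab
    by_contra hcon
    have h1 : τ b ≤ τ a := not_lt.1 hcon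
    have h2 := hf.monotone h1
    rw [h, h] at h2
    exact absurd (hg hab) (not_lt.2 h2)
  have h2 : (τ : Fin n → Fin n) = id := by
    have h3 := Subsingleton.elim (this.orderIsoOfSurjective _ τ.surjective) (OrderIso.refl (Fin n))
    funext k
    have := congrArg (fun e : Fin n ≃o Fin n => e k) h3
    simpa using this
  ext k
  simp [h2]

/-- orthonormality of the Jacobi–Trudi alternating sums with respect to the pairing by contingency tables. -/
theorem jt_ortho {n : ℕ} (lam lam' : Fin n → ℕ) (hl : StrictMono lam) (hl' : StrictMono lam') :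
    ∑ κ : Equiv.Perm (Fin n), ∑ κ' : Equiv.Perm (Fin n), (Equiv.Perm.sign κ : ℤ) * ((Equiv.Perm.sign κ' : ℤ) *
      (if ∀ i, (κ i).val ≤ lam i then (if ∀ i, (κ' i).val ≤ lam' i then
        (Nat.card (Tab (fun i => lam i - (κ i).val) (fun i => lam' i - (κ' i).val)) : ℤ) else 0) else 0)) =
      if lam = lam' then 1 else 0 := by
  classical
  have h := congrArg (coeff (fs lam')) (bialternant lam)
  rw [det_HH, det_alt, det_alt, Finset.sum_mul_sum, coeff_sum, coeff_sum] at h
  have hR : ∑ x : Equiv.Perm (Fin n), coeff (fs lam') (((Equiv.Perm.sign x : ℤ) : JR n) * monomial (fs fun k => lam (x k)) 1) =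
      if lam = lam' then 1 else 0 := by
    simp only [coeff_intCast_mul, coeff_monomial]
    by_cases hll : lam = lam'
    · rw [if_pos hll, Finset.sum_eq_single 1]
      · subst hll
        simp
      · intro τ _ hτ
        rw [if_neg, mul_zero]
        intro hh
        apply hτ
        refine strictMono_perm_eq_one lam lam' hl hl' τ (fun k => ?_)
        have := congrArg (fun f : Fin n →₀ ℕ => f k) hh
        simpa using this
      · simp
    · rw [if_neg hll]
      apply Finset.sum_eq_zero
      intro τ _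
      rw [if_neg, mul_zero]
      intro hh
      apply hll
      have h1 : ∀ k, lam (τ k) = lam' k := by
        intro k
        have := congrArg (fun f : Fin n →₀ ℕ => f k) hh
        simpa using this
      have h2 := strictMono_perm_eq_one lam lam' hl hl' τ h1
      funext k
      have := h1 k
      rw [h2] at this
      exact this
  rw [hR] at h
  rw [← h]
  apply Finset.sum_congr rfl
  intro κ _
  rw [coeff_sum]
  apply Finset.sum_congr rfl
  intro κ' _
  rw [mul_mul_mul_comm, ← Int.cast_mul, coeff_intCast_mul, mul_assoc]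
  congr 2
  rw [coeff_mul_monomial', mul_one]
  have e1 : (fs (fun k => (κ' k).val) ≤ fs lam') ↔ ∀ i, (κ' i).val ≤ lam' i := Iff.rfl
  by_cases h1 : ∀ i, (κ i).val ≤ lam i
  · rw [if_pos h1, if_pos h1]
    by_cases h2 : ∀ i, (κ' i).val ≤ lam' i
    · rw [if_pos h2, if_pos (e1.2 h2), coeff_prod_hh]
      rfl
    · rw [if_neg h2, if_neg (fun h3 => h2 (e1.1 h3))]
  · rw [if_neg h1, if_neg h1]
    simp

end Cfsg.Agent.H40
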