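import Mathlib
import Cfsg.Prelude.Def_LinearParabolics
import Cfsg.Agent.H40.GLTables
import Cfsg.Agent.H40.JacobiTrudi

set_option autoImplicit false

namespace Cfsg.Agent.H40

variable {n : ℕ}

lemma sum_sub_perm (lam : Fin n → ℕ) (hs : ∑ i : Fin n, lam i = n + ∑ i : Fin n, i.val) (κ : Equiv.Perm (Fin n))
    (h : ∀ i, (κ i).val ≤ lam i) : ∑ i, (lam i - (κ i).val) = n := by
  have h1 : ∑ i, (lam i - (κ i).val) + ∑ i, (κ i).val = ∑ i : Fin n, lam i := by
    rw [← Finset.sum_add_distrib]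
    apply Finset.sum_congr rfl
    intro i _
    have := h i
    omega
  have h2 : ∑ i, (κ i).val = ∑ i : Fin n, i.val := Equiv.sum_comp κ (fun i : Fin n => i.val)
  omega

lemma strictMono_shift (ν : Fin n → ℕ) (h : Monotone ν) : StrictMono (fun i : Fin n => ν i + i.val) := by
  intro a b hab
  have h1 := h hab.le
  have h2 : a.val < b.val := hab
  simp only
  omega

lemma sum_shift (ν : Fin n → ℕ) (h : ∑ i, ν i = n) : ∑ i : Fin n, (ν i + i.val) = n + ∑ i : Fin n, i.val := by
  rw [Finset.sum_add_distrib, h]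

theorem unip_inner {F : Type*} [Field F] [Fintype F] [DecidableEq F] (ν ν' : Fin n → ℕ) (hm : Monotone ν) (hs : ∑ i, ν i = n)
    (hm' : Monotone ν') (hs' : ∑ i, ν' i = n) :
    ∑ g : Matrix.GeneralLinearGroup (Fin n) F, Cfsg.unipotentCharacterGL n F ν g * Cfsg.unipotentCharacterGL n F ν' g =
      (Nat.card (Matrix.GeneralLinearGroup (Fin n) F) : ℂ) * if ν = ν' then 1 else 0 := by
  have h1 : ∀ g : Matrix.GeneralLinearGroup (Fin n) F, Cfsg.unipotentCharacterGL n F ν g * Cfsg.unipotentCharacterGL n F ν' g =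
      ∑ κ : Equiv.Perm (Fin n), ∑ κ' : Equiv.Perm (Fin n), (if ∀ i : Fin n, (κ i).val ≤ ν i + i.val then
        (if ∀ i : Fin n, (κ' i).val ≤ ν' i + i.val then
          ((Equiv.Perm.sign κ : ℤ) : ℂ) * ((Equiv.Perm.sign κ' : ℤ) : ℂ) *
          (Cfsg.fixedPointCharacter (Cfsg.parabolicGL n F fun i => ν i + i.val - (κ i).val) g *
          Cfsg.fixedPointCharacter (Cfsg.parabolicGL n F fun i => ν' i + i.val - (κ' i).val) g) else 0) else 0) := by
    intro g
    unfold Cfsg.unipotentCharacterGL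
    rw [Finset.sum_mul_sum]
    apply Finset.sum_congr rfl
    intro κ _
    apply Finset.sum_congr rfl
    intro κ' _
    split_ifs
    · ring
    · ring
    · ring
    · ring
  rw [Finset.sum_congr rfl (fun g _ => h1 g), Finset.sum_comm]
  have h2 := jt_ortho (fun i : Fin n => ν i + i.val) (fun i : Fin n => ν' i + i.val) (strictMono_shift ν hm) (strictMono_shift ν' hm')
  have h3 := congrArg (fun z : ℤ => (z : ℂ)) h2
  have h4 : ((fun i : Fin n => ν i + i.val) = (fun i : Fin n => ν' i + i.val)) ↔ ν = ν' := by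
    constructor
    · intro h
      funext i
      have := congrFun h i
      omega
    · rintro rfl; rfl
  have h5 : (((if (fun i : Fin n => ν i + i.val) = (fun i : Fin n => ν' i + i.val) then (1 : ℤ) else 0) : ℤ) : ℂ) =
      if ν = ν' then 1 else 0 := by
    by_cases h : ν = ν'
    · rw [if_pos h, if_pos (h4.2 h)]; norm_num
    · rw [if_neg h, if_neg (fun h' => h (h4.1 h'))]; norm_num
  rw [h5] at h3
  rw [← h3, Int.cast_sum, Finset.mul_sum]
  apply Finset.sum_congr rfl
  intro κ _
  rw [Finset.sum_comm, Int.cast_sum, Finset.mul_sum]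
  apply Finset.sum_congr rfl
  intro κ' _
  by_cases hk : ∀ i : Fin n, (κ i).val ≤ ν i + i.val
  · by_cases hk' : ∀ i : Fin n, (κ' i).val ≤ ν' i + i.val
    · simp only [if_pos hk, if_pos hk']
      rw [← Finset.mul_sum, gl_inner _ _ (sum_sub_perm _ (sum_shift ν hs) κ hk) (sum_sub_perm _ (sum_shift ν' hs') κ' hk')]
      push_cast
      ring
    · simp only [if_pos hk, if_neg hk']
      simp
  · simp only [if_neg hk]
    simp

theorem unip_injective {F : Type*} [Field F] [Fintype F] (ν ν' : Fin n → ℕ) (hm : Monotone ν) (hs : ∑ i, ν i = n)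
    (hm' : Monotone ν') (hs' : ∑ i, ν' i = n) (h : Cfsg.unipotentCharacterGL n F ν = Cfsg.unipotentCharacterGL n F ν') :
    ν = ν' := by
  classical
  by_contra hne
  have h1 := unip_inner (F := F) ν ν' hm hs hm' hs'
  have h2 := unip_inner (F := F) ν ν hm hs hm hs
  rw [h] at h1 h2
  rw [if_pos rfl, h1, if_neg hne, mul_zero, mul_one] at h2
  have : (Nat.card (Matrix.GeneralLinearGroup (Fin n) F) : ℂ) ≠ 0 := Nat.cast_ne_zero.2 Nat.card_pos.ne'
  exact this h2.symm

end Cfsg.Agent.H40
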