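import Mathlib
import Cfsg.Prelude.Def_LinearParabolics
import Cfsg.Agent.H40.GLIndex
import Cfsg.Agent.H40.GLUnip

set_option autoImplicit false

namespace Cfsg.Agent.H40

variable {n : ℕ}

lemma fix_one {G : Type*} [Group G] (H : Subgroup G) : Cfsg.fixedPointCharacter H 1 = (Nat.card (G ⧸ H) : ℂ) := by
  unfold Cfsg.fixedPointCharacter
  rw [MulAction.fixedBy_one_eq_univ, Nat.card_coe_set_eq, Set.ncard_univ]

/-- descending product -/
def desc (q m j : ℕ) : ℕ := ∏ l ∈ Finset.range j, qint q (m - l)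

lemma desc_zero_of_lt (q m j : ℕ) (h : m < j) : desc q m j = 0 := by
  unfold desc
  apply Finset.prod_eq_zero (Finset.mem_range.2 h)
  simp [qint]

lemma qfac_eq_desc (q m j : ℕ) (h : j ≤ m) : qfac q m = qfac q (m - j) * desc q m j := by
  induction j with
  | zero => simp [desc]
  | succ j ih =>
    rw [ih (by omega)]
    have h1 : qfac q (m - j) = qfac q (m - (j+1)) * qint q (m - j) := by
      have : m - j = (m - (j+1)) + 1 := by omega
      rw [this]
      unfold qfac
      rw [Finset.prod_range_succ]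
    rw [h1]
    unfold desc
    rw [Finset.prod_range_succ]
    ring

lemma qint_add (q a b : ℕ) : qint q (a + b) = qint q a + q ^ a * qint q b := by
  unfold qint
  rw [Finset.sum_range_add, Finset.mul_sum]
  congr 1
  apply Finset.sum_congr rfl
  intro i _
  rw [pow_add]

lemma pow_mul_desc (q m j : ℕ) :
    ((q ^ (∑ l ∈ Finset.range j, l) * desc q m j : ℕ) : ℂ) = ∏ l ∈ Finset.range j, (((qint q m : ℕ) : ℂ) - ((qint q l : ℕ) : ℂ)) := by
  by_cases h : j ≤ m + 1
  · unfold desc
    rw [← Finset.prod_pow_eq_pow_sum, ← Finset.prod_mul_distrib, Nat.cast_prod]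
    apply Finset.prod_congr rfl
    intro l hl
    rw [Finset.mem_range] at hl
    have h1 := qint_add q l (m - l)
    rw [show l + (m - l) = m by omega] at h1
    rw [h1]
    push_cast
    ring
  · rw [desc_zero_of_lt q m j (by omega), mul_zero, Nat.cast_zero]
    symm
    apply Finset.prod_eq_zero (Finset.mem_range.2 (by omega : m < j))
    ring

lemma six_sum (n : ℕ) : 6 * ∑ i ∈ Finset.range n, ∑ l ∈ Finset.range i, l = n * (n - 1) * (n - 2) := by
  induction n with
  | zero => simp
  | succ n ih =>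
    rw [Finset.sum_range_succ, Nat.mul_add, ih]
    have h1 : (∑ l ∈ Finset.range n, l) * 2 = n * (n - 1) := Finset.sum_range_id_mul_two n
    rcases n with _ | _ | n
    · simp
    · simp
    · have e1 : n + 1 + 1 - 1 = n + 1 := rfl
      have e2 : n + 1 + 1 - 2 = n := rfl
      have e3 : n + 1 + 1 + 1 - 1 = n + 2 := rfl
      have e4 : n + 1 + 1 + 1 - 2 = n + 1 := rfl
      rw [e1] at h1
      rw [e1, e2, e3, e4]
      nlinarith [h1]

lemma sum_tri (n : ℕ) : ∑ i : Fin n, ∑ l ∈ Finset.range i.val, l = n * (n - 1) * (n - 2) / 6 := by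
  rw [Fin.sum_univ_eq_sum_range (fun i => ∑ l ∈ Finset.range i, l) n]
  have := six_sum n
  omega

/-- monic polynomial `∏_{l<j} (X - Q(l))`. -/
noncomputable def descPoly (q j : ℕ) : Polynomial ℂ :=
  ∏ l ∈ Finset.range j, (Polynomial.X - Polynomial.C ((qint q l : ℕ) : ℂ))

lemma descPoly_natDegree (q j : ℕ) : (descPoly q j).natDegree = j := by
  unfold descPoly
  rw [Polynomial.natDegree_prod_of_monic _ _ (fun l _ => Polynomial.monic_X_sub_C _)]
  simp only [Polynomial.natDegree_X_sub_C, Finset.sum_const, Finset.card_range, smul_eq_mul, mul_one]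

lemma descPoly_monic (q j : ℕ) : (descPoly q j).Monic := by
  unfold descPoly
  exact Polynomial.monic_prod_of_monic _ _ (fun l _ => Polynomial.monic_X_sub_C _)

lemma descPoly_eval (q j : ℕ) (x : ℂ) : (descPoly q j).eval x = ∏ l ∈ Finset.range j, (x - ((qint q l : ℕ) : ℂ)) := by
  unfold descPoly
  rw [Polynomial.eval_prod]
  simp

theorem unip_degree {F : Type*} [Field F] [Fintype F] (ν : Fin n → ℕ) (hs : ∑ i, ν i = n) :
    Cfsg.unipotentCharacterGL n F ν 1 * (Fintype.card F : ℂ) ^ (n * (n - 1) * (n - 2) / 6) *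
        ∏ i : Fin n, ((qfac (Fintype.card F) (ν i + i.val) : ℕ) : ℂ) =
      ((qfac (Fintype.card F) n : ℕ) : ℂ) * ∏ i : Fin n, ∏ j ∈ Finset.univ.filter (fun j : Fin n => i < j),
          (((qint (Fintype.card F) (ν j + j.val) : ℕ) : ℂ) - ((qint (Fintype.card F) (ν i + i.val) : ℕ) : ℂ)) := by
  set q := Fintype.card F with hq
  -- each term
  have hterm : ∀ κ : Equiv.Perm (Fin n),
      (if ∀ i : Fin n, (κ i).val ≤ ν i + i.val then
        ((Equiv.Perm.sign κ : ℤ) : ℂ) * Cfsg.fixedPointCharacter (Cfsg.parabolicGL n F fun i => ν i + i.val - (κ i).val) 1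
      else 0) * ∏ i : Fin n, ((qfac q (ν i + i.val) : ℕ) : ℂ) =
      ((Equiv.Perm.sign κ : ℤ) : ℂ) * (((qfac q n : ℕ) : ℂ) * ∏ i : Fin n, ((desc q (ν i + i.val) (κ i).val : ℕ) : ℂ)) := by
    intro κ
    by_cases h : ∀ i : Fin n, (κ i).val ≤ ν i + i.val
    · rw [if_pos h, mul_assoc, fix_one]
      congr 1
      have h1 := index_parabolic (F := F) (fun i => ν i + i.val - (κ i).val) (sum_sub_perm _ (sum_shift ν hs) κ h)
      rw [← hq] at h1
      rw [← h1]
      push_cast
      rw [mul_assoc, ← Finset.prod_mul_distrib]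
      congr 1
      apply Finset.prod_congr rfl
      intro i _
      rw [qfac_eq_desc q (ν i + i.val) (κ i).val (h i)]
      push_cast
      ring
    · rw [if_neg h, zero_mul]
      push Not at h
      obtain ⟨i, hi⟩ := h
      rw [Finset.prod_eq_zero (Finset.mem_univ i)]
      · ring
      · rw [desc_zero_of_lt q _ _ hi, Nat.cast_zero]
  have h1 : Cfsg.unipotentCharacterGL n F ν 1 * (q : ℂ) ^ (n * (n - 1) * (n - 2) / 6) *
        ∏ i : Fin n, ((qfac q (ν i + i.val) : ℕ) : ℂ) =
      ((qfac q n : ℕ) : ℂ) * ∑ κ : Equiv.Perm (Fin n), ((Equiv.Perm.sign κ : ℤ) : ℂ) *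
        ∏ i : Fin n, (descPoly q (κ i).val).eval ((qint q (ν i + i.val) : ℕ) : ℂ) := by
    unfold Cfsg.unipotentCharacterGL
    rw [mul_assoc, mul_comm ((q : ℂ) ^ _), ← mul_assoc, Finset.sum_mul, Finset.sum_congr rfl (fun κ _ => hterm κ), Finset.sum_mul,
      Finset.mul_sum]
    apply Finset.sum_congr rfl
    intro κ _
    have h2 : ∏ i : Fin n, (descPoly q (κ i).val).eval ((qint q (ν i + i.val) : ℕ) : ℂ) =
        (q : ℂ) ^ (n * (n - 1) * (n - 2) / 6) * ∏ i : Fin n, ((desc q (ν i + i.val) (κ i).val : ℕ) : ℂ) := by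
      rw [← sum_tri, ← Equiv.sum_comp κ (fun i : Fin n => ∑ l ∈ Finset.range i.val, l), ← Finset.prod_pow_eq_pow_sum,
        ← Finset.prod_mul_distrib]
      apply Finset.prod_congr rfl
      intro i _
      rw [descPoly_eval, ← pow_mul_desc]
      push_cast
      ring
    rw [h2]
    ring
  rw [h1]
  congr 1
  have h3 := Matrix.det_eval_matrixOfPolynomials_eq_det_vandermonde (fun i : Fin n => ((qint q (ν i + i.val) : ℕ) : ℂ))
    (fun j : Fin n => descPoly q j.val) (fun j => descPoly_natDegree q j.val) (fun j => descPoly_monic q j.val)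
  rw [Matrix.det_vandermonde, ← Matrix.det_transpose (Matrix.of _), Matrix.det_apply'] at h3
  simp only [Matrix.transpose_apply, Matrix.of_apply] at h3
  rw [← h3]
  apply Finset.prod_congr rfl
  intro i _
  apply Finset.prod_congr _ (fun _ _ => rfl)
  ext j
  simp

end Cfsg.Agent.H40
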