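import Mathlib

set_option autoImplicit false
set_option linter.style.haveILetI false

namespace Cfsg.Agent.H40.W3

/-- A `p`-subgroup acting by conjugation on a normal subgroup: number of fixed points. -/
theorem card_modEq_inf_centralizer {H : Type*} [Group H] [Finite H] {p : ℕ} (hp : p.Prime)
    (Q : Subgroup H) (hQ : IsPGroup p Q) (N : Subgroup H) [N.Normal] :
    Nat.card N ≡ Nat.card (N ⊓ Subgroup.centralizer (Q : Set H) : Subgroup H) [MOD p] := by
  classical
  haveI : Fact p.Prime := ⟨hp⟩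
  letI act : MulAction Q N :=
    MulAction.compHom N ((MulAut.conjNormal (H := N)).comp Q.subtype)
  have hsmul : ∀ (g : Q) (x : N), ((g • x : N) : H) = (g : H) * (x : H) * (g : H)⁻¹ := by
    intro g x
    rfl
  have h := hQ.card_modEq_card_fixedPoints N
  refine h.trans ?_
  have e : MulAction.fixedPoints Q N ≃
      (N ⊓ Subgroup.centralizer (Q : Set H) : Subgroup H) :=
    { toFun := fun x => ⟨(x.1 : H), x.1.2, by
        refine Subgroup.mem_centralizer_iff.mpr ?_
        intro g hg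
        have := x.2 ⟨g, hg⟩
        have h2 : g * (x.1 : H) * g⁻¹ = (x.1 : H) := by
          rw [← hsmul ⟨g, hg⟩ x.1, this]
        exact mul_inv_eq_iff_eq_mul.mp h2⟩
      invFun := fun y => ⟨⟨y.1, y.2.1⟩, by
        intro g
        apply Subtype.ext
        rw [hsmul]
        have := (Subgroup.mem_centralizer_iff.mp y.2.2) g.1 g.2
        show (g : H) * y.1 * (g : H)⁻¹ = y.1
        rw [this]; group⟩
      left_inv := fun x => rfl
      right_inv := fun y => rfl }
  rw [Nat.card_congr e]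

/-- A `p`-subgroup normalising a coset of size prime to `p` fixes a point of it. -/
theorem fixed_in_coset {H : Type*} [Group H] [Finite H] {p : ℕ} (hp : p.Prime)
    (Q : Subgroup H) (hQ : IsPGroup p Q) (D : Subgroup H) (a : H)
    (hD : ∀ g ∈ Q, ∀ x : H, a⁻¹ * x ∈ D → a⁻¹ * (g * x * g⁻¹) ∈ D)
    (hcop : ¬ p ∣ Nat.card D) :
    ∃ x : H, a⁻¹ * x ∈ D ∧ ∀ g ∈ Q, g * x * g⁻¹ = x := by
  classical
  haveI : Fact p.Prime := ⟨hp⟩
  let S := {x : H // a⁻¹ * x ∈ D}
  letI act : MulAction Q S :=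
    { smul := fun g x => ⟨(g : H) * x.1 * (g : H)⁻¹, hD g.1 g.2 x.1 x.2⟩
      one_smul := fun x => by
        apply Subtype.ext
        show ((1 : Q) : H) * x.1 * ((1 : Q) : H)⁻¹ = x.1
        simp
      mul_smul := fun g h x => by
        apply Subtype.ext
        show ((g * h : Q) : H) * x.1 * ((g * h : Q) : H)⁻¹
          = (g : H) * ((h : H) * x.1 * (h : H)⁻¹) * (g : H)⁻¹
        rw [Subgroup.coe_mul]; group }
  have hcard : Nat.card S = Nat.card D := by
    refine Nat.card_congr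
      { toFun := fun x => ⟨a⁻¹ * x.1, x.2⟩
        invFun := fun d => ⟨a * d.1, by rw [inv_mul_cancel_left]; exact d.2⟩
        left_inv := fun x => by
          apply Subtype.ext
          show a * (a⁻¹ * x.1) = x.1
          group
        right_inv := fun d => by
          apply Subtype.ext
          show a⁻¹ * (a * d.1) = d.1
          group }
  haveI : Finite S := inferInstance
  obtain ⟨x, hx⟩ := hQ.nonempty_fixed_point_of_prime_not_dvd_card S (by rw [hcard]; exact hcop)
  refine ⟨x.1, x.2, fun g hg => ?_⟩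
  have := hx ⟨g, hg⟩
  exact congrArg Subtype.val this

theorem fix {G : Type*} [Group G] [Finite G] {p r : ℕ} (hp : p.Prime) (hr : r.Prime)
    (hpr : p ≠ r) (P : Sylow p G) (M : Subgroup G) [M.Normal]
    (hZM : Subgroup.center G ≤ M) {t : ℕ} (ht : (Subgroup.center G).relIndex M = r ^ t)
    (hab : ∀ a ∈ M, ∀ b ∈ M, a * b * a⁻¹ * b⁻¹ ∈ Subgroup.center G)
    (hcM : ∀ m ∈ M, (∀ y ∈ M, m * y = y * m) → m ∈ Subgroup.center G)
    (hact : ∃ m ∈ M, ∃ g ∈ P, g * m * g⁻¹ * m⁻¹ ∉ Subgroup.center G) :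
    ∃ C : Subgroup G, Subgroup.center G ≤ C ∧ C ≤ M ∧ C ≠ M ∧
      (∀ m ∈ C, (∀ y ∈ C, m * y = y * m) → m ∈ Subgroup.center G) ∧
      ((C.relIndex M : ℤ) ≡ 1 [ZMOD p]) := by
  classical
  haveI : Fact p.Prime := ⟨hp⟩
  haveI : Fact r.Prime := ⟨hr⟩
  set Z := Subgroup.center G with hZ
  let f : G →* G ⧸ Z := QuotientGroup.mk' Z
  have hfk : f.ker = Z := QuotientGroup.ker_mk' Z
  have hfs : Function.Surjective f := QuotientGroup.mk'_surjective Z
  let Q : Subgroup (G ⧸ Z) := (P : Subgroup G).map f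
  have hQ : IsPGroup p Q := P.isPGroup'.map f
  let N : Subgroup (G ⧸ Z) := M.map f
  haveI hNn : N.Normal := Subgroup.Normal.map inferInstance f hfs
  let F : Subgroup (G ⧸ Z) := N ⊓ Subgroup.centralizer (Q : Set (G ⧸ Z))
  let C : Subgroup G := F.comap f
  have hMcomap : N.comap f = M := by
    show (M.map f).comap f = M
    rw [Subgroup.comap_map_eq, hfk, sup_eq_left]
    exact hZM
  have hCM : C ≤ M := by
    calc C ≤ N.comap f := Subgroup.comap_mono inf_le_left
      _ = M := hMcomap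
  have hZC : Z ≤ C := by
    rw [← hfk]
    intro x hx
    show f x ∈ F
    rw [MonoidHom.mem_ker.mp hx]
    exact F.one_mem
  have hCF : C.map f = F := Subgroup.map_comap_eq_self_of_surjective hfs F
  -- membership
  have hfeq : ∀ x y : G, f x = f y ↔ x * y⁻¹ ∈ Z := by
    intro x y
    have h0 : x * y⁻¹ ∈ Z ↔ x * y⁻¹ ∈ f.ker := by rw [hfk]
    rw [h0, MonoidHom.mem_ker, map_mul, map_inv, mul_inv_eq_one]
  have hCmem : ∀ m : G, m ∈ C ↔ m ∈ M ∧ ∀ g ∈ P, g * m * g⁻¹ * m⁻¹ ∈ Z := by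
    intro m
    constructor
    · intro hm
      refine ⟨hCM hm, fun g hg => ?_⟩
      have h2 : f m ∈ Subgroup.centralizer (Q : Set (G ⧸ Z)) := hm.2
      have h3 := (Subgroup.mem_centralizer_iff.mp h2) (f g) ⟨g, hg, rfl⟩
      rw [← hfeq, map_mul, map_mul, map_inv, h3]
      group
    · rintro ⟨hm, h⟩
      refine ⟨⟨m, hm, rfl⟩, ?_⟩
      refine Subgroup.mem_centralizer_iff.mpr ?_
      rintro _ ⟨g, hg, rfl⟩
      have h2 := h g hg
      rw [← hfeq, map_mul, map_mul, map_inv] at h2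
      exact mul_inv_eq_iff_eq_mul.mp h2
  have hrel : ∀ K : Subgroup G, Z.relIndex K = Nat.card (K.map f) := by
    intro K
    have h0 := Subgroup.relIndex_ker K f
    rw [hfk] at h0
    exact h0
  have hcardN : Nat.card N = r ^ t := by
    rw [← ht]
    exact (hrel M).symm
  have hcardF : Nat.card F = Z.relIndex C := by
    rw [hrel C, hCF]
  have hmod : Nat.card N ≡ Nat.card F [MOD p] := card_modEq_inf_centralizer hp Q hQ N
  have hmul : Z.relIndex C * C.relIndex M = Z.relIndex M :=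
    Subgroup.relIndex_mul_relIndex Z C M hZC hCM
  have hpr' : ¬ p ∣ r ^ t := by
    intro h
    exact hpr ((Nat.prime_dvd_prime_iff_eq hp hr).mp (hp.dvd_of_dvd_pow h))
  refine ⟨C, hZC, hCM, ?_, ?_, ?_⟩
  · intro h
    obtain ⟨m, hm, g, hg, hmg⟩ := hact
    rw [← h] at hm
    exact hmg (((hCmem m).mp hm).2 g hg)
  · intro m hm hmC
    apply hcM m (hCM hm)
    intro a ha
    by_contra hna
    obtain ⟨hmM, hmP⟩ := (hCmem m).mp hm
    -- D = centralizer of m in M
    let D : Subgroup G := M ⊓ Subgroup.centralizer ({m} : Set G)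
    have hDmem : ∀ y : G, y ∈ D ↔ y ∈ M ∧ m * y = y * m := by
      intro y
      constructor
      · rintro ⟨h1, h2⟩
        exact ⟨h1, (Subgroup.mem_centralizer_iff.mp h2) m rfl⟩
      · rintro ⟨h1, h2⟩
        refine ⟨h1, ?_⟩
        refine Subgroup.mem_centralizer_iff.mpr ?_
        intro x hx
        rw [Set.mem_singleton_iff.mp hx]
        exact h2
    have hZD : Z ≤ D := by
      intro z hz
      rw [hDmem]
      exact ⟨hZM hz, (Subgroup.mem_center_iff.mp hz) m⟩
    have hDM : D ≤ M := inf_le_left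
    have hcardD : ¬ p ∣ Nat.card (D.map f) := by
      have h1 : Nat.card (D.map f) = Z.relIndex D := (hrel D).symm
      have h2 : Z.relIndex D * D.relIndex M = Z.relIndex M :=
        Subgroup.relIndex_mul_relIndex Z D M hZD hDM
      intro h
      apply hpr'
      rw [← ht, ← h2, ← h1]
      exact Dvd.dvd.mul_right h _
    -- conjugation by m
    have hc : m * a * m⁻¹ * a⁻¹ ∈ Z := hab m hmM a ha
    set c := m * a * m⁻¹ * a⁻¹ with hcdef
    have hcc : ∀ x : G, x * c = c * x := fun x => (Subgroup.mem_center_iff.mp hc) x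
    have hma : m * a * m⁻¹ = c * a := by rw [hcdef]; group
    obtain ⟨x, hx1, hx2⟩ := fixed_in_coset hp Q hQ (D.map f) (f a) (by
      rintro _ ⟨g, hg, rfl⟩ x ⟨d, hd, hdx⟩
      obtain ⟨hdM, hdm⟩ := (hDmem d).mp hd
      have hxx : x = f (a * d) := by
        rw [map_mul, hdx]; group
      refine ⟨a⁻¹ * (g * (a * d) * g⁻¹), ?_, by rw [hxx]; simp [map_mul, map_inv]⟩
      rw [SetLike.mem_coe, hDmem]
      have hMg : g * (a * d) * g⁻¹ ∈ M :=
        (inferInstance : M.Normal).conj_mem _ (M.mul_mem ha hdM) g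
      refine ⟨M.mul_mem (M.inv_mem ha) hMg, ?_⟩
      -- m (a d) m⁻¹ = c a d
      have h1 : m * (a * d) * m⁻¹ = c * (a * d) := by
        have : m * (a * d) * m⁻¹ = (m * a * m⁻¹) * (m * d * m⁻¹) := by group
        rw [this, hma, hdm]; group
      -- z = g⁻¹ m g m⁻¹ central
      have hz : g⁻¹ * m * (g⁻¹)⁻¹ * m⁻¹ ∈ Z := hmP g⁻¹ ((P : Subgroup G).inv_mem hg)
      set z := g⁻¹ * m * (g⁻¹)⁻¹ * m⁻¹ with hzdef
      have hzc : ∀ x : G, x * z = z * x := fun x => (Subgroup.mem_center_iff.mp hz) x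
      have hgm : g⁻¹ * m * g = z * m := by rw [hzdef]; group
      have h2 : m * (g * (a * d) * g⁻¹) * m⁻¹ = c * (g * (a * d) * g⁻¹) := by
        have e1 : m * (g * (a * d) * g⁻¹) * m⁻¹
            = g * ((g⁻¹ * m * g) * (a * d) * (g⁻¹ * m * g)⁻¹) * g⁻¹ := by group
        have e2 : (z * m) * (a * d) * (z * m)⁻¹ = m * (a * d) * m⁻¹ := by
          calc (z * m) * (a * d) * (z * m)⁻¹
              = z * (m * (a * d) * m⁻¹) * z⁻¹ := by group
            _ = (m * (a * d) * m⁻¹) * z * z⁻¹ := by rw [hzc]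
            _ = m * (a * d) * m⁻¹ := by group
        rw [e1, hgm, e2, h1]
        calc g * (c * (a * d)) * g⁻¹ = (g * c) * (a * d) * g⁻¹ := by group
          _ = (c * g) * (a * d) * g⁻¹ := by rw [hcc]
          _ = c * (g * (a * d) * g⁻¹) := by group
      have h3 : m * (a⁻¹ * (g * (a * d) * g⁻¹)) * m⁻¹ = a⁻¹ * (g * (a * d) * g⁻¹) := by
        calc m * (a⁻¹ * (g * (a * d) * g⁻¹)) * m⁻¹
            = (m * a * m⁻¹)⁻¹ * (m * (g * (a * d) * g⁻¹) * m⁻¹) := by group
          _ = (c * a)⁻¹ * (c * (g * (a * d) * g⁻¹)) := by rw [hma, h2]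
          _ = a⁻¹ * (g * (a * d) * g⁻¹) := by group
      exact mul_inv_eq_iff_eq_mul.mp h3) hcardD
    obtain ⟨d, hd, hdx⟩ := hx1
    have hxx : x = f (a * d) := by rw [map_mul, hdx]; group
    obtain ⟨hdM, hdm⟩ := (hDmem d).mp hd
    have hadC : a * d ∈ C := by
      rw [hCmem]
      refine ⟨M.mul_mem ha hdM, fun g hg => ?_⟩
      have := hx2 (f g) ⟨g, hg, rfl⟩
      rw [hxx] at this
      rw [← hfeq, map_mul, map_mul, map_inv]
      exact this
    have h4 := hmC _ hadC
    apply hna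
    have h5 : m * a = m * (a * d) * d⁻¹ := by group
    rw [h5, h4]
    have h6 : m * d⁻¹ = d⁻¹ * m := by
      calc m * d⁻¹ = d⁻¹ * (d * m) * d⁻¹ := by group
        _ = d⁻¹ * (m * d) * d⁻¹ := by rw [hdm]
        _ = d⁻¹ * m := by group
    calc a * d * m * d⁻¹ = a * d * (m * d⁻¹) := by group
      _ = a * d * (d⁻¹ * m) := by rw [h6]
      _ = a * m := by group
  · -- index
    have h1 : (Z.relIndex C * C.relIndex M : ℕ) ≡ Z.relIndex C [MOD p] := by
      rw [hmul, ht, ← hcardN, ← hcardF]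
      exact hmod
    have hcop : Nat.Coprime p (Z.relIndex C) := by
      rw [hp.coprime_iff_not_dvd]
      intro h
      apply hpr'
      rw [← ht, ← hmul]
      exact Dvd.dvd.mul_right h _
    have h2 : C.relIndex M ≡ 1 [MOD p] := by
      have h3 : Z.relIndex C * C.relIndex M ≡ Z.relIndex C * 1 [MOD p] := by
        rw [mul_one]; exact h1
      exact Nat.ModEq.cancel_left_of_coprime hcop h3
    have h4 := (Int.natCast_modEq_iff (n := p)).mpr h2
    exact_mod_cast h4

end Cfsg.Agent.H40.W3
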